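import Cfsg.Agent.Cov.Basic

/-! Artin-Schreier elements `θ ^ 3 = θ + c` in characteristic three. -/

set_option autoImplicit false

namespace Cfsg.Agent.Cov

open Polynomial Matrix

variable {F : Type*} [Field F]

/-- The Artin-Schreier polynomial. -/
noncomputable def asP (c : F) : F[X] := X ^ 3 - X - C c

theorem asP_monic (c : F) : (asP c).Monic := by unfold asP; monicity!

theorem asP_natDegree (c : F) : (asP c).natDegree = 3 := by unfold asP; compute_degree!

theorem asP_irr {c : F} (h : ∀ t, t ^ 3 - t ≠ c) : Irreducible (asP c) :=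
  irreducible_of_degree_le_three_of_not_isRoot (by rw [asP_natDegree]; simp) fun t ht =>
    h t (by simpa [asP, sub_eq_zero] using ht)

theorem aeval_asP {A : Type*} [Ring A] [Algebra F A] (θ : A) (c : F) :
    aeval θ (asP c) = 0 ↔ θ ^ 3 = θ + c • 1 := by
  simp only [asP, map_sub, map_pow, aeval_X, aeval_C, Algebra.algebraMap_eq_smul_one]
  rw [sub_sub, sub_eq_zero]

theorem commute_aeval {A : Type*} [Ring A] [Algebra F A] {x y : A} (h : Commute x y) (r : F[X]) :
    Commute x (aeval y r) := by
  induction r using Polynomial.induction_on' with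
  | add p q hp hq => rw [map_add]; exact hp.add_right hq
  | monomial n c =>
    rw [aeval_monomial]
    exact Commute.mul_right (Algebra.commutes c x).symm (h.pow_right n)

section Three
variable [CharP F 3]

theorem three_eq_zero' (F : Type*) [Field F] [CharP F 3] : (3 : F) = 0 := CharP.cast_eq_zero F 3

theorem cube_add (a b : F) : (a + b) ^ 3 = a ^ 3 + b ^ 3 := by
  linear_combination (a ^ 2 * b + a * b ^ 2) * three_eq_zero' F

theorem cube_inj {a b : F} (h : a ^ 3 = b ^ 3) : a = b := by
  have : (a - b) ^ 3 = 0 := by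
    linear_combination h + (-a ^ 2 * b + a * b ^ 2) * three_eq_zero' F
  exact sub_eq_zero.1 (pow_eq_zero_iff three_ne_zero |>.1 this)

theorem exists_cube [Finite F] (a : F) : ∃ b, b ^ 3 = a :=
  Finite.surjective_of_injective (f := fun b : F => b ^ 3) (fun _ _ h => cube_inj h) a

theorem exists_as_const [Finite F] (σ : F →+* F) (hσ : ∀ a, σ (σ a) = a) :
    ∃ c, σ c = c ∧ ∀ t, t ^ 3 - t ≠ c := by
  have h3 := three_eq_zero' F
  let f : {x : F // σ x = x} → {x : F // σ x = x} :=
    fun x => ⟨x.1 ^ 3 - x.1, by rw [map_sub, map_pow, x.2]⟩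
  have : ¬ Function.Surjective f := fun h => by
    have := Finite.injective_iff_surjective.2 h (a₁ := ⟨0, map_zero σ⟩) (a₂ := ⟨1, map_one σ⟩)
      (Subtype.ext (by simp [f]))
    simpa using congrArg Subtype.val this
  unfold Function.Surjective at this
  push Not at this
  obtain ⟨c, hc⟩ := this
  refine ⟨c, c.2, fun t ht => ?_⟩
  have h1 : σ t ^ 3 - σ t = c := by rw [← map_pow, ← map_sub, ht, c.2]
  have h2 : (σ t - t) * (σ t - t - 1) * (σ t - t + 1) = 0 := by
    linear_combination h1 - ht + (-σ t ^ 2 * t + σ t * t ^ 2) * h3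
  have h4 : σ t = t := by
    rcases mul_eq_zero.1 h2 with h | h
    · rcases mul_eq_zero.1 h with h | h
      · exact sub_eq_zero.1 h
      · have := congrArg σ h
        rw [map_sub, map_sub, hσ, map_one, map_zero] at this
        exact absurd (by linear_combination h + this + h3) (one_ne_zero (α := F))
    · have := congrArg σ h
      rw [map_add, map_sub, hσ, map_one, map_zero] at this
      exact absurd (by linear_combination -h - this + h3) (one_ne_zero (α := F))
  exact hc ⟨t, h4⟩ (Subtype.ext ht)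

variable {ι : Type*} [Fintype ι] [DecidableEq ι]

theorem mat_three : (3 : Matrix ι ι F) = 0 := by
  have : (3 : Matrix ι ι F) = algebraMap F _ 3 := (map_ofNat _ 3).symm
  rw [this, three_eq_zero', map_zero]

theorem mat_cube_add {a b : Matrix ι ι F} (h : Commute a b) : (a + b) ^ 3 = a ^ 3 + b ^ 3 := by
  rw [h.add_pow]
  simp [Finset.sum_range_succ, Nat.choose, mat_three, add_comm]

omit [DecidableEq ι] [CharP F 3] in
/-- Union of the graphs of `θ + k`, `k` in the prime field. -/
def graphs (θ : Matrix ι ι F) : Set ((ι → F) × (ι → F)) :=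
  {p | ∃ k : F, k ^ 3 = k ∧ p.2 = θ *ᵥ p.1 + k • p.1}

omit [DecidableEq ι] in
theorem pres_graphs {G : Type*} [Group G] {φ : G → Matrix ι ι F}
    (h : IsAct fun g v => φ g *ᵥ v) {θ₀ θ : Matrix ι ι F} {g y : G} {j : F}
    (hy : φ y * θ₀ = θ * φ y) (hj : j ^ 3 = j) (hg : φ g * θ = θ * φ g + j • φ g) :
    Pres (fun g (x : (ι → F) × (ι → F)) => (φ g *ᵥ x.1, φ g *ᵥ x.2)) (graphs θ₀) g := by
  refine pres_of_set h.prod y (graphs θ) (fun v => ?_) ?_
  · refine exists_congr fun k => and_congr_right fun _ => ?_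
    have inj : ∀ a b, φ y *ᵥ a = φ y *ᵥ b → a = b := fun a b e => by
      have := congrArg (φ y⁻¹ *ᵥ ·) e
      simp only [← h.mul, inv_mul_cancel, h.one] at this
      exact this
    simp only
    rw [mulVec_mulVec, ← hy, ← mulVec_mulVec, ← mulVec_smul, ← mulVec_add]
    exact ⟨inj _ _, fun e => by rw [e]⟩
  · rintro ⟨v, w⟩ ⟨k, hk, e⟩
    refine ⟨j + k, by rw [cube_add, hj, hk], ?_⟩
    simp only at e ⊢
    rw [e, mulVec_add, mulVec_mulVec, hg, add_mulVec, mulVec_mulVec, smul_mulVec, mulVec_smul,
      add_smul, add_assoc]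

omit [DecidableEq ι] [CharP F 3] in
theorem graphs_smul (θ : Matrix ι ι F) (c : F) {p : (ι → F) × (ι → F)} (hp : p ∈ graphs θ) :
    (c • p.1, c • p.2) ∈ graphs θ := by
  obtain ⟨k, hk, e⟩ := hp
  exact ⟨k, hk, by simp only [e, mulVec_smul, smul_add, smul_comm c k]⟩

end Three

end Cfsg.Agent.Cov
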