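import Cfsg.Agent.Cov.Herm
import Cfsg.Agent.Cov.AS
import Cfsg.Agent.HForm.Witt

/-! Self-adjoint maps commuting with an indecomposable symplectic map in dimension six. -/

set_option autoImplicit false

namespace Cfsg.Agent.Cov

open Polynomial Module Cfsg.Agent.Forms

variable {F : Type*} [Field F] {V : Type*} [AddCommGroup V] [Module F V]
  {B : LinearMap.BilinForm F V}

/-- Self-adjoint maps. -/
def SA (B : LinearMap.BilinForm F V) (y : End F V) : Prop := ∀ u v, B (y u) v = B u (y v)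

theorem SA.one : SA B 1 := fun _ _ => rfl

theorem SA.add {y z : End F V} (hy : SA B y) (hz : SA B z) : SA B (y + z) := fun u v => by
  simp [hy u v, hz u v]

theorem SA.smul {y : End F V} (hy : SA B y) (a : F) : SA B (a • y) := fun u v => by
  simp [hy u v]

theorem SA.neg {y : End F V} (hy : SA B y) : SA B (-y) := fun u v => by
  simp [hy u v]

theorem SA.sub {y z : End F V} (hy : SA B y) (hz : SA B z) : SA B (y - z) := fun u v => by
  simp [hy u v, hz u v]

theorem SA.pow {y : End F V} (hy : SA B y) (n : ℕ) : SA B (y ^ n) := by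
  induction n with
  | zero => rw [pow_zero]; exact SA.one
  | succ n ih =>
    intro u v
    rw [pow_succ, End.mul_apply, ih, hy, ← End.mul_apply, ← pow_succ', pow_succ]

theorem SA.aeval {y : End F V} (hy : SA B y) (P : F[X]) : SA B (aeval y P) := by
  induction P using Polynomial.induction_on' with
  | add p q hp hq => rw [map_add]; exact hp.add hq
  | monomial n c =>
    rw [aeval_monomial, ← Algebra.smul_def]
    exact (hy.pow n).smul c

theorem alt_swap (ha : ∀ x, B x x = 0) (x y : V) : B y x = -B x y := by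
  have := ha (x + y)
  simp only [map_add, LinearMap.add_apply, ha] at this
  linear_combination this

theorem SA.self (ha : ∀ x, B x x = 0) (h2 : (2 : F) ≠ 0) {y : End F V} (hy : SA B y) (v : V) :
    B v (y v) = 0 := by
  have h1 := hy v v
  rw [alt_swap ha] at h1
  apply mul_left_cancel₀ h2
  linear_combination -h1

theorem aeval_restrict_apply {y : End F V} {M : Submodule F V} (h : ∀ x ∈ M, y x ∈ M) (P : F[X])
    (v : M) : ((aeval (y.restrict h) P v : M) : V) = aeval y P v := by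
  induction P using Polynomial.induction_on' with
  | add p q hp hq => simp [hp, hq]
  | monomial n c =>
    simp only [aeval_monomial, ← Algebra.smul_def, LinearMap.smul_apply, Submodule.coe_smul]
    rw [Module.End.pow_restrict n h]
    rfl

/-- An invariant nondegenerate plane. -/
def ND2 (B : LinearMap.BilinForm F V) (g : End F V) : Prop :=
  ∃ a b, B a b = 1 ∧ g a ∈ Submodule.span F {a, b} ∧ g b ∈ Submodule.span F {a, b}

theorem li_of_form_one (ha : ∀ x, B x x = 0) {a b : V} (h : B a b = 1) :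
    LinearIndependent F ![a, b] :=
  LinearIndependent.pair_iff.2 fun s t e => by
    have e1 := congrArg (fun x => B x b) e
    have e2 := congrArg (fun x => B a x) e
    simp [h, ha] at e1 e2
    exact ⟨e1, e2⟩

variable [FiniteDimensional F V]

theorem nd2_of_sub (ha : ∀ x, B x x = 0) {g : End F V} {W : Submodule F V} (h2 : finrank F W = 2)
    (hg : ∀ x ∈ W, g x ∈ W) (hnd : ∀ x ∈ W, (∀ y ∈ W, B x y = 0) → x = 0) : ND2 B g := by
  have : W ≠ ⊥ := by rintro rfl; simp at h2
  obtain ⟨a, haW, ha0⟩ := W.exists_mem_ne_zero_of_ne_bot this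
  obtain ⟨y, hy, hy'⟩ : ∃ y ∈ W, B a y ≠ 0 := by
    by_contra h; push Not at h; exact ha0 (hnd a haW h)
  have hb : B a ((B a y)⁻¹ • y) = 1 := by rw [map_smul, smul_eq_mul, inv_mul_cancel₀ hy']
  have hbW := W.smul_mem (B a y)⁻¹ hy
  have e : Submodule.span F {a, (B a y)⁻¹ • y} = W := by
    refine Submodule.eq_of_le_of_finrank_eq (Submodule.span_le.2 ?_) ?_
    · rintro x (rfl | rfl); exacts [haW, hbW]
    · have := finrank_span_eq_card (li_of_form_one ha hb)
      rw [Matrix.range_cons_cons_empty] at this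
      rw [h2]; simpa using this
  exact ⟨a, _, hb, e ▸ hg _ haW, e ▸ hg _ hbW⟩

theorem even_finrank_of_nd (ha : ∀ x, B x x = 0) {W : Submodule F V}
    (hnd : ∀ x ∈ W, (∀ y ∈ W, B x y = 0) → x = 0) : Even (finrank F W) := by
  obtain ⟨n, b, -⟩ := HForm.exists_symplectic_basis (B.domRestrict₁₂ W W) (fun v => ha v)
    fun x hx => Subtype.ext (hnd x x.2 fun y hy => hx ⟨y, hy⟩)
  exact ⟨n, by simpa using finrank_eq_card_basis b⟩

theorem nilp_of_not_inj (ha : ∀ x, B x x = 0) (hnd : ∀ x, (∀ y, B x y = 0) → x = 0)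
    (h6 : finrank F V = 6) {g f : End F V} (hno : ¬ ND2 B g) (hf : SA B f) (hc : Commute g f)
    {v : V} (hv : v ≠ 0) (hfv : f v = 0) : IsNilpotent f := by
  obtain ⟨n, hn, hn1⟩ := ((LinearMap.eventually_isCompl_ker_pow_range_pow f).and
    (Filter.eventually_ge_atTop 1)).exists
  have hs := hf.pow n
  have hc' := hc.pow_right n
  have horth : ∀ x ∈ LinearMap.ker (f ^ n), ∀ y ∈ LinearMap.range (f ^ n), B x y = 0 := by
    rintro x hx _ ⟨z, rfl⟩
    rw [← hs, LinearMap.mem_ker.1 hx]; simp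
  have hdec : ∀ z, ∃ x ∈ LinearMap.ker (f ^ n), ∃ y ∈ LinearMap.range (f ^ n), x + y = z :=
    fun z => Submodule.mem_sup.1 (hn.sup_eq_top ▸ Submodule.mem_top)
  have k1 : ∀ x ∈ LinearMap.ker (f ^ n), (∀ y ∈ LinearMap.ker (f ^ n), B x y = 0) → x = 0 := by
    intro x hx h
    refine hnd x fun z => ?_
    obtain ⟨a, h1, b, h2, rfl⟩ := hdec z
    rw [map_add, h a h1, horth x hx b h2, add_zero]
  have k2 : ∀ x ∈ LinearMap.range (f ^ n), (∀ y ∈ LinearMap.range (f ^ n), B x y = 0) → x = 0 := by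
    intro x hx h
    refine hnd x fun z => ?_
    obtain ⟨a, h1, b, h2, rfl⟩ := hdec z
    rw [map_add, h b h2, alt_swap ha, horth a h1 x hx, neg_zero, add_zero]
  have i1 : ∀ x ∈ LinearMap.ker (f ^ n), g x ∈ LinearMap.ker (f ^ n) := by
    intro x hx
    rw [LinearMap.mem_ker] at hx ⊢
    rw [← End.mul_apply, ← hc'.eq, End.mul_apply, hx, map_zero]
  have i2 : ∀ x ∈ LinearMap.range (f ^ n), g x ∈ LinearMap.range (f ^ n) := by
    rintro _ ⟨z, rfl⟩
    exact ⟨g z, by rw [← End.mul_apply, ← hc'.eq, End.mul_apply]⟩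
  have d1 := even_finrank_of_nd ha k1
  have d2 : finrank F (LinearMap.ker (f ^ n)) ≠ 2 := fun h => hno (nd2_of_sub ha h i1 k1)
  have d3 : finrank F (LinearMap.range (f ^ n)) ≠ 2 := fun h => hno (nd2_of_sub ha h i2 k2)
  have d4 := (f ^ n).finrank_range_add_finrank_ker
  have d5 : finrank F (LinearMap.ker (f ^ n)) ≠ 0 := by
    rw [Ne, Submodule.finrank_eq_zero]
    intro h
    obtain ⟨m, rfl⟩ := Nat.exists_eq_add_of_le' hn1
    have : v ∈ LinearMap.ker (f ^ (m + 1)) := by
      rw [LinearMap.mem_ker, pow_succ, End.mul_apply, hfv, map_zero]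
    rw [h] at this
    exact hv this
  have d6 : finrank F (LinearMap.range (f ^ n)) = 0 := by
    obtain ⟨k, hk⟩ := d1
    omega
  exact ⟨n, LinearMap.range_eq_bot.1 (Submodule.finrank_eq_zero.1 d6)⟩

theorem exists_lagr (ha : ∀ x, B x x = 0) (hB : B.Nondegenerate) (h2 : (2 : F) ≠ 0)
    (h6 : finrank F V = 6) {y : End F V} (hy : SA B y) :
    ∃ M : Submodule F V, (∀ x ∈ M, y x ∈ M) ∧ finrank F M = 3 := by
  obtain ⟨M, ⟨h1, h3⟩, hmax⟩ := set_has_maximal_iff_noetherian.2 (inferInstance : IsNoetherian F V)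
    {M : Submodule F V | (∀ x ∈ M, y x ∈ M) ∧ ∀ x ∈ M, ∀ z ∈ M, B x z = 0}
    ⟨⊥, by simp, by simp⟩
  have hpow : ∀ n, ∀ x ∈ M, (y ^ n) x ∈ M := by
    intro n
    induction n with
    | zero => intro x hx; exact hx
    | succ n ih => intro x hx; rw [pow_succ, End.mul_apply]; exact ih _ (h1 x hx)
  have e : B.orthogonal M = M := by
    refine le_antisymm (fun v hv => ?_) fun v hv n hn => h3 n hn v hv
    let C : Submodule F V := Submodule.span F (Set.range fun n : ℕ => (y ^ n) v)
    have c1 : ∀ x ∈ C, y x ∈ C := by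
      intro x hx
      induction hx using Submodule.span_induction with
      | mem x hx =>
        obtain ⟨n, rfl⟩ := hx
        exact Submodule.subset_span ⟨n + 1, by simp [pow_succ']⟩
      | zero => simp
      | add a b _ _ h h' => rw [map_add]; exact add_mem h h'
      | smul a b _ h => rw [map_smul]; exact C.smul_mem _ h
    have c2 : ∀ m ∈ M, ∀ x ∈ C, B m x = 0 := by
      intro m hm x hx
      induction hx using Submodule.span_induction with
      | mem x hx =>
        obtain ⟨n, rfl⟩ := hx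
        exact (hy.pow n m v).symm.trans (hv _ (hpow n m hm))
      | zero => simp
      | add a b _ _ h h' => rw [map_add, h, h', add_zero]
      | smul a b _ h => rw [map_smul, h, smul_zero]
    have c3 : ∀ x ∈ C, ∀ z ∈ C, B x z = 0 := by
      intro x hx z hz
      induction hx using Submodule.span_induction with
      | mem x hx =>
        obtain ⟨n, rfl⟩ := hx
        induction hz using Submodule.span_induction with
        | mem z hz =>
          obtain ⟨k, rfl⟩ := hz
          rw [hy.pow n, ← End.mul_apply, ← pow_add]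
          exact (hy.pow _).self ha h2 v
        | zero => simp
        | add a b _ _ h h' => rw [map_add, h, h', add_zero]
        | smul a b _ h => rw [map_smul, h, smul_zero]
      | zero => simp
      | add a b _ _ h h' => rw [map_add, LinearMap.add_apply, h, h', add_zero]
      | smul a b _ h => rw [map_smul, LinearMap.smul_apply, h, smul_zero]
    have := hmax (M ⊔ C) ⟨fun x hx => ?_, fun x hx z hz => ?_⟩
    · have e : M ⊔ C = M := (eq_of_le_of_not_lt le_sup_left this).symm
      rw [← e]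
      exact Submodule.mem_sup_right (Submodule.subset_span ⟨0, by simp⟩)
    · obtain ⟨a, h4, b, h5, rfl⟩ := Submodule.mem_sup.1 hx
      rw [map_add]
      exact add_mem (Submodule.mem_sup_left (h1 a h4)) (Submodule.mem_sup_right (c1 b h5))
    · obtain ⟨a, h4, b, h5, rfl⟩ := Submodule.mem_sup.1 hx
      obtain ⟨a', h4', b', h5', rfl⟩ := Submodule.mem_sup.1 hz
      simp only [map_add, LinearMap.add_apply]
      rw [h3 a h4 a' h4', c2 a h4 b' h5', c3 b h5 b' h5', alt_swap ha, c2 a' h4' b h5]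
      simp
  have := LinearMap.BilinForm.finrank_orthogonal hB M
  rw [e, h6] at this
  exact ⟨M, h1, by omega⟩

theorem sa_cases (ha : ∀ x, B x x = 0) (hB : B.Nondegenerate) (h2 : (2 : F) ≠ 0)
    (h6 : finrank F V = 6) {g y : End F V} (hno : ¬ ND2 B g) (hy : SA B y) (hc : Commute g y) :
    (∃ a : F, IsNilpotent (y - a • 1)) ∨
      ∃ P : F[X], P.Monic ∧ Irreducible P ∧ P.natDegree = 3 ∧ IsNilpotent (aeval y P) := by
  obtain ⟨M, hM, h3⟩ := exists_lagr ha hB h2 h6 hy
  have hnd : ∀ x, (∀ y, B x y = 0) → x = 0 := hB.1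
  by_cases hr : ∃ a, (y.restrict hM).charpoly.IsRoot a
  · obtain ⟨a, hr⟩ := hr
    obtain ⟨v, hv, e⟩ := eig_of_root hr
    refine Or.inl ⟨a, nilp_of_not_inj ha hnd h6 hno (hy.sub (SA.one.smul a))
      (hc.sub_right ((Commute.one_right g).smul_right a)) (v := v) (by simpa using hv) ?_⟩
    have : y v = a • (v : V) := congrArg Subtype.val e
    simp [this]
  · push Not at hr
    have hd : (y.restrict hM).charpoly.natDegree = 3 := by rw [LinearMap.charpoly_natDegree, h3]
    have : M ≠ ⊥ := by rintro rfl; simp at h3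
    obtain ⟨v, hvM, hv⟩ := M.exists_mem_ne_zero_of_ne_bot this
    refine Or.inr ⟨_, LinearMap.charpoly_monic _,
      irreducible_of_degree_le_three_of_not_isRoot (by rw [hd]; simp) hr, hd,
      nilp_of_not_inj ha hnd h6 hno (hy.aeval _) (commute_aeval hc _) hv ?_⟩
    rw [← aeval_restrict_apply hM _ ⟨v, hvM⟩, LinearMap.aeval_self_charpoly]
    rfl

omit [FiniteDimensional F V] in
theorem as_frame (hB : Rep (σ := RingHom.id F) B) [Nontrivial V] {c : F} (hc : ∀ t, t ^ 3 - t ≠ c)
    {θ : End F V} (h : θ ^ 3 = θ + c • 1) :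
    ∃ e f, B e f = 0 ∧ B (θ e) f = 0 ∧ B (θ (θ e)) f = 1 := by
  obtain ⟨e, he⟩ := exists_ne (0 : V)
  have key : ∀ Q : F[X], Q ≠ 0 → Q.natDegree < 3 → aeval θ Q e ≠ 0 := by
    intro Q hQ hd h0
    have : IsCoprime (asP c) Q := (asP_irr hc).coprime_iff_not_dvd.2 fun hdvd => by
      have := natDegree_le_of_dvd hdvd hQ
      rw [asP_natDegree] at this
      omega
    obtain ⟨a, b, hab⟩ := this
    have := congrArg (fun P => aeval θ P e) hab
    simp only [map_add, map_mul, (aeval_asP θ c).2 h, mul_zero, zero_add, End.mul_apply, h0,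
      map_zero, map_one, End.one_apply] at this
    exact he this.symm
  obtain ⟨φ, h0, h1, h2⟩ := Fac.exists_fun₃ he (y := θ e) (z := θ (θ e))
    (fun s hs => key (X - C s) (X_sub_C_ne_zero s) (by simp) (by
      simp [hs, Algebra.algebraMap_eq_smul_one]))
    (fun s t hs => key (X ^ 2 - C t * X - C s) (Monic.ne_zero (by monicity!))
      (by compute_degree!) (by
        simp [sq, hs, Algebra.algebraMap_eq_smul_one])) 0 0 1
  obtain ⟨f, hf⟩ := hB φ
  exact ⟨e, f, by rw [hf, h0], by rw [hf, h1], by rw [hf, h2]⟩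

omit [FiniteDimensional F V] in
theorem as_gram (ha : ∀ x, B x x = 0) (h2 : (2 : F) ≠ 0) {c : F} {θ : End F V} (hs : SA B θ)
    (h : θ ^ 3 = θ + c • 1) {e f : V} (h0 : B e f = 0) (h1 : B (θ e) f = 0)
    (h3 : B (θ (θ e)) f = 1) (i j : Fin 6) :
    B (![e, θ e, θ (θ e), f, θ f, θ (θ f)] i) (![e, θ e, θ (θ e), f, θ f, θ (θ f)] j) =
      !![0, 0, 0, 0, 0, 1; 0, 0, 0, 0, 1, 0; 0, 0, 0, 1, 0, 1;
        0, 0, -1, 0, 0, 0; 0, -1, 0, 0, 0, 0; -1, 0, -1, 0, 0, 0] i j := by
  have h' : ∀ x, θ (θ (θ x)) = θ x + c • x := fun x => by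
    have := congrArg (fun k : End F V => k x) h
    simpa [pow_succ] using this
  have s1 : ∀ x, B x (θ x) = 0 := hs.self ha h2
  have s2 : ∀ x, B x (θ (θ x)) = 0 := fun x => by rw [← hs, ha]
  have g0 : B f e = 0 := by rw [alt_swap ha, h0, neg_zero]
  have g1 : B f (θ e) = 0 := by rw [alt_swap ha, h1, neg_zero]
  have g3 : B f (θ (θ e)) = -1 := by rw [alt_swap ha, h3]
  rw [hs] at h1
  rw [hs, hs] at h3
  fin_cases i <;> fin_cases j <;> simp [hs _ _, h', s1, s2, ha, h0, h1, h3, g0, g1, g3]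

theorem as_conj (ha : ∀ x, B x x = 0) (hB : B.Nondegenerate) (h2 : (2 : F) ≠ 0)
    (h6 : finrank F V = 6) {c : F} (hc : ∀ t, t ^ 3 - t ≠ c) {θ₀ θ : End F V} (hs₀ : SA B θ₀)
    (hs : SA B θ) (h₀ : θ₀ ^ 3 = θ₀ + c • 1) (h : θ ^ 3 = θ + c • 1) :
    ∃ u : End F V, (∀ x y, B (u x) (u y) = B x y) ∧ u * θ₀ = θ * u := by
  have : Nontrivial V := Module.nontrivial_of_finrank_pos (R := F) (by omega)
  have hrep := rep_of_nondegenerate hB
  obtain ⟨e₀, f₀, a0, a1, a2⟩ := as_frame hrep hc h₀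
  obtain ⟨e, f, b0, b1, b2⟩ := as_frame hrep hc h
  have G₀ := as_gram ha h2 hs₀ h₀ a0 a1 a2
  have G := as_gram ha h2 hs h b0 b1 b2
  have li : ∀ w : Fin 6 → V, (∀ i j, B (w i) (w j) =
      !![0, 0, 0, 0, 0, 1; 0, 0, 0, 0, 1, 0; 0, 0, 0, 1, 0, 1;
        0, 0, -1, 0, 0, 0; 0, -1, 0, 0, 0, 0; -1, 0, -1, 0, 0, 0] i j) →
      LinearIndependent F w := by
    intro w hw
    refine Fintype.linearIndependent_iff.2 fun s hs => ?_
    have k : ∀ j, ∑ i, s i * B (w i) (w j) = 0 := fun j => by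
      have := congrArg (fun x => B x (w j)) hs
      simpa [map_sum] using this
    have k0 := k 0
    have k1 := k 1
    have k2 := k 2
    have k3 := k 3
    have k4 := k 4
    have k5 := k 5
    simp [hw, Fin.sum_univ_six] at k0 k1 k2 k3 k4 k5
    simp [k0, k3] at k2 k5
    intro i
    fin_cases i <;> assumption
  obtain ⟨u, hu, hu'⟩ := witt_alt_family hrep ha _ _ (li _ G₀) (li _ G)
    fun i j => (G₀ i j).trans (G i j).symm
  refine ⟨u, hu, (basisOfLinearIndependentOfCardEqFinrank (li _ G₀) (by simp [h6])).ext fun i => ?_⟩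
  have h₀' : ∀ x, θ₀ (θ₀ (θ₀ x)) = θ₀ x + c • x := fun x => by
    have := congrArg (fun k : End F V => k x) h₀
    simpa [pow_succ] using this
  have h' : ∀ x, θ (θ (θ x)) = θ x + c • x := fun x => by
    have := congrArg (fun k : End F V => k x) h
    simpa [pow_succ] using this
  have u0 : u e₀ = e := hu' 0
  have u1 : u (θ₀ e₀) = θ e := hu' 1
  have u2 : u (θ₀ (θ₀ e₀)) = θ (θ e) := hu' 2
  have u3 : u f₀ = f := hu' 3
  have u4 : u (θ₀ f₀) = θ f := hu' 4
  have u5 : u (θ₀ (θ₀ f₀)) = θ (θ f) := hu' 5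
  fin_cases i <;> simp [h₀', h', u0, u1, u2, u3, u4, u5]

end Cfsg.Agent.Cov
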