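import Mathlib
import Cfsg.Agent.GLn.CentDet
import Cfsg.Agent.GLn.Frames
import Cfsg.Agent.GLn.Blocks

/-! Normal 2-coverings: generic tools, roots of polynomials in finite rings, linear groups. -/

set_option autoImplicit false

namespace Cfsg.Agent.Cov

open Polynomial

/-- `G` is the union of the conjugates of two proper subgroups. -/
def Cov2 (G : Type*) [Group G] : Prop :=
  ∃ H K : Subgroup G, H ≠ ⊤ ∧ K ≠ ⊤ ∧ ∀ g : G, ∃ x : G, x * g * x⁻¹ ∈ H ∨ x * g * x⁻¹ ∈ K

section Act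
variable {G : Type*} [Group G]

/-- An action given as a bare function. -/
structure IsAct {X : Type*} (ρ : G → X → X) : Prop where
  one : ∀ x, ρ 1 x = x
  mul : ∀ g h x, ρ (g * h) x = ρ g (ρ h x)

theorem IsAct.prod {X : Type*} {ρ : G → X → X} (h : IsAct ρ) :
    IsAct (fun g (x : X × X) => (ρ g x.1, ρ g x.2)) :=
  ⟨fun x => by simp [h.one], fun g k x => by simp [h.mul]⟩

theorem IsAct.fst {X Y : Type*} {ρ : G → X → X} (h : IsAct ρ) :
    IsAct (fun g (x : X × Y) => (ρ g x.1, x.2)) :=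
  ⟨fun x => by simp [h.one], fun g k x => by simp [h.mul]⟩

/-- The stabiliser of a set in a finite group. -/
def setStab [Finite G] {X : Type*} {ρ : G → X → X} (h : IsAct ρ) (S : Set X) : Subgroup G where
  carrier := {g | ∀ x ∈ S, ρ g x ∈ S}
  one_mem' := fun x hx => by rwa [h.one]
  mul_mem' := fun {a b} ha hb x hx => by rw [h.mul]; exact ha _ (hb _ hx)
  inv_mem' := fun {a} ha => by
    have hp : ∀ n : ℕ, ∀ x ∈ S, ρ (a ^ n) x ∈ S := by
      intro n
      induction n with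
      | zero => intro x hx; rwa [pow_zero, h.one]
      | succ n ih => intro x hx; rw [pow_succ, h.mul]; exact ih _ (ha _ hx)
    have e : a⁻¹ = a ^ (orderOf a - 1) := by
      have h0 := orderOf_pos a
      rw [inv_eq_iff_mul_eq_one, ← pow_succ', Nat.sub_add_cancel h0, pow_orderOf_eq_one]
    intro x hx
    rw [e]; exact hp _ x hx

/-- `g` preserves a translate of `S`. -/
def Pres {X : Type*} (ρ : G → X → X) (S : Set X) (g : G) : Prop :=
  ∃ y : G, ∀ v ∈ S, ∃ w ∈ S, ρ g (ρ y v) = ρ y w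

theorem Pres.conj_mem [Finite G] {X : Type*} {ρ : G → X → X} (h : IsAct ρ) {S : Set X} {g : G}
    (hg : Pres ρ S g) : ∃ x : G, x * g * x⁻¹ ∈ setStab h S := by
  obtain ⟨y, hy⟩ := hg
  refine ⟨y⁻¹, fun v hv => ?_⟩
  obtain ⟨w, hw, e⟩ := hy v hv
  rw [inv_inv, h.mul, h.mul, e, ← h.mul, inv_mul_cancel, h.one]
  exact hw

theorem pres_of_set {X : Type*} {ρ : G → X → X} (h : IsAct ρ) {S : Set X} {g : G} (y : G)
    (T : Set X) (hT : ∀ v, ρ y v ∈ T ↔ v ∈ S) (hg : ∀ v ∈ T, ρ g v ∈ T) : Pres ρ S g := by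
  refine ⟨y, fun v hv => ⟨ρ y⁻¹ (ρ g (ρ y v)), ?_, ?_⟩⟩
  · rw [← hT, ← h.mul, mul_inv_cancel, h.one]
    exact hg _ ((hT v).2 hv)
  · rw [← h.mul y, mul_inv_cancel, h.one]

theorem setStab_ne_top [Finite G] {X : Type*} {ρ : G → X → X} (h : IsAct ρ) {S : Set X}
    (hS : ∃ g, ∃ x ∈ S, ρ g x ∉ S) : setStab h S ≠ ⊤ := by
  obtain ⟨g, x, hx, hg⟩ := hS
  intro e
  have : g ∈ setStab h S := e ▸ Subgroup.mem_top g
  exact hg (this x hx)

theorem cov_of_act [Finite G] {X Y : Type*} {ρ : G → X → X} {ρ' : G → Y → Y} (h : IsAct ρ)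
    (h' : IsAct ρ') (S : Set X) (T : Set Y) (hS : ∃ g, ∃ x ∈ S, ρ g x ∉ S)
    (hT : ∃ g, ∃ x ∈ T, ρ' g x ∉ T) (hc : ∀ g, Pres ρ S g ∨ Pres ρ' T g) : Cov2 G := by
  refine ⟨setStab h S, setStab h' T, setStab_ne_top h hS, setStab_ne_top h' hT, fun g => ?_⟩
  rcases hc g with hg | hg
  · obtain ⟨x, hx⟩ := hg.conj_mem h; exact ⟨x, Or.inl hx⟩
  · obtain ⟨x, hx⟩ := hg.conj_mem h'; exact ⟨x, Or.inr hx⟩

theorem map_ne_top_of_le {N H : Subgroup G} [N.Normal] (hN : N ≤ H) (hH : H ≠ ⊤) :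
    H.map (QuotientGroup.mk' N) ≠ ⊤ := by
  intro e
  apply hH
  have := Subgroup.comap_map_eq (QuotientGroup.mk' N) H
  rw [e, QuotientGroup.ker_mk', sup_eq_left.2 hN] at this
  rw [← this]; simp

theorem cov_quot [Finite G] {X Y : Type*} {ρ : G → X → X} {ρ' : G → Y → Y} (h : IsAct ρ)
    (h' : IsAct ρ') (S : Set X) (T : Set Y) (hS : ∃ g, ∃ x ∈ S, ρ g x ∉ S)
    (hT : ∃ g, ∃ x ∈ T, ρ' g x ∉ T) (zS : ∀ z ∈ Subgroup.center G, ∀ x ∈ S, ρ z x ∈ S)
    (zT : ∀ z ∈ Subgroup.center G, ∀ x ∈ T, ρ' z x ∈ T)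
    (hc : ∀ g, Pres ρ S g ∨ Pres ρ' T g) : Cov2 (G ⧸ Subgroup.center G) := by
  refine ⟨(setStab h S).map (QuotientGroup.mk' _), (setStab h' T).map (QuotientGroup.mk' _),
    map_ne_top_of_le zS (setStab_ne_top h hS), map_ne_top_of_le zT (setStab_ne_top h' hT),
    fun g => ?_⟩
  obtain ⟨g, rfl⟩ := QuotientGroup.mk'_surjective _ g
  rcases hc g with hg | hg
  · obtain ⟨x, hx⟩ := hg.conj_mem h
    exact ⟨QuotientGroup.mk' _ x, Or.inl ⟨_, hx, by simp⟩⟩
  · obtain ⟨x, hx⟩ := hg.conj_mem h'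
    exact ⟨QuotientGroup.mk' _ x, Or.inr ⟨_, hx, by simp⟩⟩

end Act

section Poly
variable {F : Type*} [Field F]

theorem exists_root_of_max {R : Type*} [CommRing R] [Finite R] [Algebra F R] {m : F[X]}
    (hm : m.Separable) (h : ∀ M : Ideal R, M.IsMaximal → ∃ x : R, aeval x m ∈ M) :
    ∃ x : R, aeval x m = 0 := by
  have hfin : Finite (MaximalSpectrum R) :=
    Finite.of_injective (fun m : MaximalSpectrum R => (m.asIdeal : Set R))
      fun m m' h => MaximalSpectrum.ext (SetLike.coe_injective h)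
  choose x hx using fun M : MaximalSpectrum R => h M.asIdeal M.isMaximal
  have hco : Pairwise (Function.onFun IsCoprime fun m : MaximalSpectrum R => m.asIdeal) :=
    fun _ _ h => MaximalSpectrum.isCoprime_of_ne h
  obtain ⟨x0, hx0⟩ := Ideal.exists_forall_sub_mem_ideal hco x
  have hνm : ∀ M : Ideal R, M.IsMaximal → aeval x0 m ∈ M := by
    intro M hM
    have h1 := hx ⟨M, hM⟩
    have h2 := hx0 ⟨M, hM⟩
    have h3 : x0 - x ⟨M, hM⟩ ∣ aeval x0 m - aeval (x ⟨M, hM⟩) m := by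
      have := Polynomial.sub_dvd_eval_sub x0 (x ⟨M, hM⟩) (m.map (algebraMap F R))
      simpa [eval_map_algebraMap] using this
    obtain ⟨c, hc⟩ := h3
    have : aeval x0 m = aeval (x ⟨M, hM⟩) m + (x0 - x ⟨M, hM⟩) * c := by rw [← hc]; ring
    rw [this]
    exact M.add_mem h1 (M.mul_mem_right _ h2)
  have hnil : IsNilpotent (aeval x0 m) := by
    obtain ⟨k, hk⟩ := IsArtinianRing.isNilpotent_jacobson_bot (R := R)
    have : aeval x0 m ∈ Ideal.jacobson (⊥ : Ideal R) :=
      Ideal.mem_sInf.2 fun {M} hM => hνm M hM.2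
    have := Ideal.pow_mem_pow this k
    rw [hk] at this
    exact ⟨k, by simpa using this⟩
  have hu : IsUnit (aeval x0 (derivative m)) := by
    obtain ⟨a, b, hab⟩ := hm
    have e : aeval x0 b * aeval x0 (derivative m) = 1 - aeval x0 a * aeval x0 m := by
      have := congrArg (aeval x0) hab
      simp only [map_add, map_mul, map_one] at this
      rw [← this]; ring
    have : IsUnit (1 - aeval x0 a * aeval x0 m) :=
      IsNilpotent.isUnit_one_sub ((Commute.all _ _).isNilpotent_mul_left hnil)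
    rw [← e] at this
    exact isUnit_of_mul_isUnit_right this
  obtain ⟨r, ⟨-, hr⟩, -⟩ := existsUnique_nilpotent_sub_and_aeval_eq_zero hnil hu
  exact ⟨r, hr⟩

theorem exists_dvd_comp [Finite F] {μ m : F[X]} (hμ : μ.Monic) (hm : Irreducible m)
    (h : ∀ P : F[X], Irreducible P → P ∣ μ → m.natDegree ∣ P.natDegree) :
    ∃ r : F[X], μ ∣ m.comp r := by
  have : Module.Finite F (AdjoinRoot μ) := (AdjoinRoot.powerBasis' hμ).finite
  have : Finite (AdjoinRoot μ) := Module.finite_of_finite F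
  obtain ⟨x, hx⟩ := exists_root_of_max (R := AdjoinRoot μ) (PerfectField.separable_of_irreducible hm)
    (by
      intro M hM
      let _ := Ideal.Quotient.field M
      have : Finite (AdjoinRoot μ ⧸ M) := Finite.of_surjective _ Ideal.Quotient.mk_surjective
      have : Module.Finite F (AdjoinRoot μ ⧸ M) := Module.Finite.of_finite
      set γ : AdjoinRoot μ ⧸ M := Ideal.Quotient.mkₐ F M (AdjoinRoot.root μ) with hγ
      have hγ0 : aeval γ μ = 0 := by
        rw [hγ, aeval_algHom_apply, AdjoinRoot.aeval_eq, AdjoinRoot.mk_self, map_zero]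
      have hi : IsIntegral F γ := Algebra.IsIntegral.isIntegral γ
      have h1 := h _ (minpoly.irreducible hi) (minpoly.dvd F γ hγ0)
      have h2 := minpoly.degree_dvd hi
      have : Fact (Irreducible m) := ⟨hm⟩
      have h3 : Module.finrank F (AdjoinRoot m) = m.natDegree := by
        rw [(AdjoinRoot.powerBasis hm.ne_zero).finrank, AdjoinRoot.powerBasis_dim]
      obtain ⟨φ⟩ := FiniteField.nonempty_algHom_of_finrank_dvd (F := F) (K := AdjoinRoot m)
        (L := AdjoinRoot μ ⧸ M) (h3 ▸ h1.trans h2)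
      obtain ⟨x, hx⟩ := Ideal.Quotient.mk_surjective (φ (AdjoinRoot.root m))
      refine ⟨x, Ideal.Quotient.eq_zero_iff_mem.1 ?_⟩
      have e : Ideal.Quotient.mk M (aeval x m) = aeval (Ideal.Quotient.mkₐ F M x) m := by
        rw [aeval_algHom_apply]; rfl
      rw [e]
      change aeval (Ideal.Quotient.mk M x) m = 0
      rw [hx, aeval_algHom_apply, AdjoinRoot.aeval_eq, AdjoinRoot.mk_self, map_zero])
  obtain ⟨r, rfl⟩ := AdjoinRoot.mk_surjective x
  refine ⟨r, AdjoinRoot.mk_eq_zero.1 ?_⟩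
  rw [← AdjoinRoot.aeval_eq, aeval_comp, AdjoinRoot.aeval_eq, hx]

theorem exists_aeval_root [Finite F] {A : Type*} [Ring A] [Algebra F A] {μ m : F[X]} (hμ : μ.Monic)
    (hm : Irreducible m) (h : ∀ P : F[X], Irreducible P → P ∣ μ → m.natDegree ∣ P.natDegree)
    {g : A} (hg : aeval g μ = 0) : ∃ r : F[X], aeval (aeval g r) m = 0 := by
  obtain ⟨r, c, hc⟩ := exists_dvd_comp hμ hm h
  exact ⟨r, by rw [← aeval_comp, hc, map_mul, hg, zero_mul]⟩

theorem exists_root_of_natDegree_one {P : F[X]} (h : P.natDegree = 1) : ∃ a, P.IsRoot a :=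
  exists_root_of_degree_eq_one ((degree_eq_iff_natDegree_eq_of_pos one_pos).2 h)

/-- Degrees of the irreducible factors of a rootless polynomial. -/
theorem natDegree_of_rootless {μ P : F[X]} (hμ : μ ≠ 0) (h : ∀ a, ¬ μ.IsRoot a)
    (hP : Irreducible P) (hd : P ∣ μ) :
    2 ≤ P.natDegree ∧ P.natDegree ≤ μ.natDegree ∧ P.natDegree + 1 ≠ μ.natDegree := by
  obtain ⟨Q, rfl⟩ := hd
  have hQ : Q ≠ 0 := right_ne_zero_of_mul hμ
  have e := natDegree_mul hP.ne_zero hQ
  have h0 := hP.natDegree_pos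
  refine ⟨?_, by omega, fun h1 => ?_⟩
  · by_contra h2
    obtain ⟨a, ha⟩ := exists_root_of_natDegree_one (P := P) (by omega)
    exact h a (by rw [IsRoot, eval_mul, ha.eq_zero, zero_mul])
  · obtain ⟨a, ha⟩ := exists_root_of_natDegree_one (P := Q) (by omega)
    exact h a (by rw [IsRoot, eval_mul, ha.eq_zero, mul_zero])

theorem exists_irr_natDegree (F : Type*) [Field F] [Fintype F] {d : ℕ} (hd : 0 < d) :
    ∃ m : F[X], m.Monic ∧ Irreducible m ∧ m.natDegree = d := by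
  obtain ⟨K, _, _, _, -, -, -, hK, -⟩ := GLn.exists_singer F d hd
  have : Module.Finite F K := Module.Finite.of_finite
  obtain ⟨a, ha⟩ := Field.exists_primitive_element_of_finite_top F K
  have hi : IsIntegral F a := Algebra.IsIntegral.isIntegral a
  exact ⟨minpoly F a, minpoly.monic hi, minpoly.irreducible hi,
    hK ▸ (Field.primitive_element_iff_minpoly_natDegree_eq F a).1 ha⟩

end Poly

section Lin
open Matrix Cfsg.Agent.GLn
variable {F : Type*} [Field F] {ι : Type*} [Fintype ι] [DecidableEq ι]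

theorem hasED_of_irr {m : F[X]} (hm : Irreducible m) (hm' : m.Monic) {s : Matrix ι ι F}
    (h : aeval s m = 0) : ∃ k, k * m.natDegree = Fintype.card ι ∧
      HasED s (Multiset.replicate k (m, 1)) := by
  obtain ⟨M, hM⟩ := exists_hasED s
  have h1 := (hM.aeval_eq_zero_iff m).1 h
  have h2 : ∀ x ∈ M, x = (m, 1) := by
    intro x hx
    obtain ⟨hi, hmo, hpos⟩ := hM.1 x hx
    have hd := h1 x hx
    have hd1 : x.1 ∣ m := (dvd_pow_self x.1 hpos.ne').trans hd
    have e1 : x.1 = m := eq_of_monic_of_associated hmo hm' (hi.associated_of_dvd hm hd1)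
    have := natDegree_le_of_dvd hd hm.ne_zero
    rw [natDegree_pow, e1] at this
    have h0 := hm.natDegree_pos
    have e2 : x.2 = 1 := by
      have : x.2 ≤ 1 := by nlinarith
      omega
    exact Prod.ext e1 e2
  have e : M = Multiset.replicate M.card (m, 1) := Multiset.eq_replicate_card.2 h2
  refine ⟨M.card, ?_, e ▸ hM⟩
  rw [← hM.card_eq, e]
  simp

theorem isConj_of_irr {m : F[X]} (hm : Irreducible m) (hm' : m.Monic) {s t : Matrix ι ι F}
    (hs : aeval s m = 0) (ht : aeval t m = 0) : IsConj s t := by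
  obtain ⟨k, hk, h1⟩ := hasED_of_irr hm hm' hs
  obtain ⟨l, hl, h2⟩ := hasED_of_irr hm hm' ht
  have : k = l := Nat.eq_of_mul_eq_mul_right hm.natDegree_pos (hk.trans hl.symm)
  subst this
  exact h1.isConj h2

theorem exists_sl_conj_of_irr [Finite F] [Nonempty ι] {m : F[X]} (hm : Irreducible m)
    (hm' : m.Monic) {s t : Matrix ι ι F} (hs : aeval s m = 0) (ht : aeval t m = 0) :
    ∃ x : SpecialLinearGroup ι F, x.1 * s = t * x.1 := by
  obtain ⟨c, hc⟩ := isConj_of_irr hm hm' hs ht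
  obtain ⟨k, hk, h1⟩ := hasED_of_irr hm hm' hs
  have hk0 : k ≠ 0 := by
    rintro rfl
    have := Fintype.card_pos (α := ι)
    omega
  obtain ⟨C, hC, hd⟩ := h1.exists_commute_det (x := (m, 1)) (Multiset.mem_replicate.2 ⟨hk0, rfl⟩)
    (GeneralLinearGroup.det c)⁻¹
  refine ⟨⟨c.1 * C.1, ?_⟩, ?_⟩
  · have := congrArg Units.val hd
    simp only [pow_one, GeneralLinearGroup.val_det_apply, Units.val_inv_eq_inv_val] at this
    rw [det_mul, this, mul_inv_cancel₀]
    exact (Matrix.isUnit_iff_isUnit_det _ |>.1 c.isUnit).ne_zero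
  · change c.1 * C.1 * s = t * (c.1 * C.1)
    rw [Matrix.mul_assoc, hC.eq, ← Matrix.mul_assoc, hc.eq, Matrix.mul_assoc]

theorem exists_matrix_irr {m : F[X]} (hm : Irreducible m) (hm' : m.Monic)
    (hd : m.natDegree ∣ Fintype.card ι) : ∃ s : Matrix ι ι F, aeval s m = 0 := by
  obtain ⟨k, hk⟩ := hd
  obtain ⟨s, hs⟩ := exists_of_validED (n := ι) (M := Multiset.replicate k (m, 1))
    (fun x hx => by
      obtain ⟨-, rfl⟩ := Multiset.mem_replicate.1 hx
      exact ⟨hm, hm', one_pos⟩) (by simp [hk, mul_comm])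
  refine ⟨s, (hs.aeval_eq_zero_iff m).2 fun x hx => ?_⟩
  obtain ⟨-, rfl⟩ := Multiset.mem_replicate.1 hx
  simp

theorem exists_eigvec {g : Matrix ι ι F} {a : F} (h : g.charpoly.IsRoot a) :
    ∃ v, v ≠ 0 ∧ g *ᵥ v = a • v := by
  have h1 : (scalar ι a - g).det = 0 := by rw [← eval_charpoly]; exact h
  obtain ⟨v, hv, e⟩ := exists_mulVec_eq_zero_iff.2 h1
  refine ⟨v, hv, ?_⟩
  rw [sub_mulVec, sub_eq_zero] at e
  rw [← e]; ext i; simp [scalar_apply, mulVec_diagonal]

theorem aeval_mulVec_of_eig {s : Matrix ι ι F} {v : ι → F} {a : F} (h : s *ᵥ v = a • v)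
    (P : F[X]) : aeval s P *ᵥ v = P.eval a • v := by
  induction P using Polynomial.induction_on' with
  | add p q hp hq => rw [map_add, add_mulVec, hp, hq, eval_add, add_smul]
  | monomial n c =>
    have : ∀ n : ℕ, (s ^ n) *ᵥ v = a ^ n • v := by
      intro n
      induction n with
      | zero => simp
      | succ n ih => rw [pow_succ, ← mulVec_mulVec, h, mulVec_smul, ih, smul_smul, pow_succ']
    rw [aeval_monomial, ← mulVec_mulVec, this, eval_monomial, Algebra.algebraMap_eq_smul_one,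
      smul_mulVec, one_mulVec, smul_smul]

theorem not_eig_of_irr {m : F[X]} (hm : Irreducible m) (h2 : 2 ≤ m.natDegree) {s : Matrix ι ι F}
    (hs : aeval s m = 0) {v : ι → F} (hv : v ≠ 0) (a : F) : s *ᵥ v ≠ a • v := by
  intro e
  have := aeval_mulVec_of_eig e m
  rw [hs, zero_mulVec, eq_comm, smul_eq_zero] at this
  have hr : m.IsRoot a := this.resolve_right hv
  have := degree_eq_one_of_irreducible_of_root hm hr
  have : m.natDegree = 1 := natDegree_eq_of_degree_eq_some this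
  omega

theorem isAct_sl : IsAct (fun (g : SpecialLinearGroup ι F) (v : ι → F) => g.1 *ᵥ v) :=
  ⟨sl_one_mulVec, sl_mul_mulVec⟩

theorem cov_psl (F : Type*) [Field F] [Fintype F] {n d : ℕ} (hn : 2 ≤ n) (hd : 2 ≤ d)
    (hdn : d ∣ n) (hk : ∀ k, 2 ≤ k → k ≤ n → k + 1 ≠ n → d ∣ k) :
    Cov2 (ProjectiveSpecialLinearGroup (Fin n) F) := by
  obtain ⟨m, hm', hm, hmd⟩ := exists_irr_natDegree F (d := d) (by omega)
  obtain ⟨s, hs⟩ := exists_matrix_irr (ι := Fin n) hm hm' (by simpa [hmd] using hdn)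
  have : Nonempty (Fin n) := ⟨⟨0, by omega⟩⟩
  set e : Fin n → F := Pi.single ⟨0, by omega⟩ 1 with he
  have he0 : e ≠ 0 := by
    intro h; have := congrFun h ⟨0, by omega⟩; simp [he] at this
  have hz : ∀ z ∈ Subgroup.center (SpecialLinearGroup (Fin n) F), ∃ c : F, ∀ v, z.1 *ᵥ v = c • v := by
    intro z hz
    obtain ⟨c, hc⟩ := (sl_mem_center_iff z).1 hz
    exact ⟨c, fun v => by rw [hc, Algebra.algebraMap_eq_smul_one, smul_mulVec, one_mulVec]⟩
  refine cov_quot isAct_sl isAct_sl.prod {v | ∃ c : F, v = c • e} {p | p.2 = s *ᵥ p.1} ?_ ?_ ?_ ?_ ?_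
  · have h1 : (Pi.single ⟨1, by omega⟩ 1 : Fin n → F) ≠ 0 := by
      intro h; have := congrFun h ⟨1, by omega⟩; simp at this
    obtain ⟨g, hg⟩ := exists_sl_single hn he0 h1
    refine ⟨g, e, ⟨1, by simp⟩, ?_⟩
    rintro ⟨c, hc⟩
    rw [hg] at hc
    have := congrFun hc ⟨1, by omega⟩
    simp [he] at this
  · by_contra hcon
    push Not at hcon
    have hc : ∀ t : TransvectionStruct (Fin n) F, Commute t.toMatrix s := by
      intro t
      have := fun v => hcon ⟨t.toMatrix, t.det⟩ (v, s *ᵥ v) rfl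
      simp only [Set.mem_ofPred_eq, mulVec_mulVec] at this
      exact Matrix.ext_iff_mulVec.2 this
    obtain ⟨a, ha⟩ := mem_range_scalar_of_commute_transvectionStruct hc
    refine not_eig_of_irr hm (hmd ▸ hd) hs he0 a ?_
    rw [← ha]; ext i; simp [scalar_apply, mulVec_diagonal]
  · rintro z hz' v ⟨c, rfl⟩
    obtain ⟨a, ha⟩ := hz z hz'
    exact ⟨a * c, by rw [ha, smul_smul]⟩
  · rintro z hz' ⟨v, w⟩ hw
    obtain ⟨a, ha⟩ := hz z hz'
    simp only [Set.mem_ofPred_eq] at hw ⊢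
    rw [ha, ha, hw, mulVec_smul]
  · intro g
    by_cases hr : ∃ a, g.1.charpoly.IsRoot a
    · obtain ⟨a, ha⟩ := hr
      obtain ⟨v, hv, hgv⟩ := exists_eigvec ha
      obtain ⟨y, hy⟩ := exists_sl_single hn he0 hv
      refine Or.inl ⟨y, ?_⟩
      rintro _ ⟨c, rfl⟩
      refine ⟨(a * c) • e, ⟨_, rfl⟩, ?_⟩
      simp only [mulVec_smul, hy, hgv, smul_smul, mul_comm]
    · push Not at hr
      obtain ⟨r, hr'⟩ := exists_aeval_root g.1.charpoly_monic hm (fun P hP hPd => by
        obtain ⟨h1, h2, h3⟩ := natDegree_of_rootless g.1.charpoly_monic.ne_zero hr hP hPd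
        rw [charpoly_natDegree_eq_dim, Fintype.card_fin] at h2 h3
        rw [hmd]; exact hk _ h1 h2 h3) (aeval_self_charpoly g.1)
      obtain ⟨y, hy⟩ := exists_sl_conj_of_irr hm hm' hs hr'
      have hc : g.1 * aeval g.1 r = aeval g.1 r * g.1 := by
        have := (Commute.all X r).map (aeval g.1)
        rw [aeval_X] at this
        exact this.eq
      refine Or.inr ⟨y, ?_⟩
      rintro ⟨v, w⟩ hw
      simp only [Set.mem_ofPred_eq] at hw
      refine ⟨((y⁻¹ * g * y).1 *ᵥ v, s *ᵥ (y⁻¹ * g * y).1 *ᵥ v), rfl, ?_⟩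
      have e1 : y.1 * (y⁻¹ * g * y).1 = g.1 * y.1 :=
        congrArg Subtype.val (show y * (y⁻¹ * g * y) = g * y by group)
      simp only [hw, mulVec_mulVec, e1, Prod.mk.injEq, true_and]
      rw [hy, ← Matrix.mul_assoc y.1, hy, Matrix.mul_assoc _ y.1, e1, ← Matrix.mul_assoc,
        ← Matrix.mul_assoc, hc]

theorem cov_psl2 (F : Type*) [Field F] [Fintype F] :
    Cov2 (ProjectiveSpecialLinearGroup (Fin 2) F) :=
  cov_psl F (d := 2) le_rfl le_rfl dvd_rfl fun k _ _ _ => by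
    have : k = 2 := by omega
    rw [this]

theorem cov_psl3 (F : Type*) [Field F] [Fintype F] :
    Cov2 (ProjectiveSpecialLinearGroup (Fin 3) F) :=
  cov_psl F (d := 3) (by norm_num) (by norm_num) dvd_rfl fun k _ _ _ => by
    have : k = 3 := by omega
    rw [this]

theorem cov_psl4 (F : Type*) [Field F] [Fintype F] :
    Cov2 (ProjectiveSpecialLinearGroup (Fin 4) F) :=
  cov_psl F (d := 2) (by norm_num) le_rfl (by norm_num) fun k _ _ _ => by omega

end Lin

end Cfsg.Agent.Cov
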