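import Cfsg.Agent.Cov.Basic
import Cfsg.Agent.Forms.SympGroup
import Cfsg.Agent.HForm.Bridge

/-! Dye's theorem: in characteristic two every symplectic element fixes a quadratic form. -/

set_option autoImplicit false

namespace Cfsg.Agent.Cov

open Matrix Cfsg.Agent.Forms

section Wp
variable {F : Type*} [Field F] [Finite F] [CharP F 2]

theorem sq_inj_two {a b : F} (h : a ^ 2 = b ^ 2) : a = b := by
  have : (a + b) ^ 2 = 0 := by rw [CharTwo.add_sq, h, CharTwo.add_self_eq_zero]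
  have := pow_eq_zero_iff (two_ne_zero) |>.1 this
  rwa [CharTwo.add_eq_zero] at this

theorem exists_sq_two (a : F) : ∃ b, b ^ 2 = a :=
  Finite.surjective_of_injective (f := fun b : F => b ^ 2) (fun _ _ h => sq_inj_two h) a

theorem exists_wp_class (F : Type*) [Field F] [Finite F] [CharP F 2] {α : Type*} [Nonempty α]
    (f : α → F) : ∃ c₀, ∀ c, (∃ μ, μ ^ 2 + μ = f c) ∨ ∃ μ, μ ^ 2 + μ = f c₀ + f c := by
  let wp : F →+ F := ⟨⟨fun x => x ^ 2 + x, by simp⟩, fun x y => by
    change (x + y) ^ 2 + (x + y) = x ^ 2 + x + (y ^ 2 + y)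
    rw [CharTwo.add_sq]; ring⟩
  have hk : Nat.card wp.ker = 2 := by
    have : (wp.ker : Set F) = {0, 1} := by
      ext x
      simp only [SetLike.mem_coe, AddMonoidHom.mem_ker, Set.mem_insert_iff, Set.mem_singleton_iff]
      change x ^ 2 + x = 0 ↔ _
      rw [show x ^ 2 + x = x * (x + 1) by ring, mul_eq_zero, CharTwo.add_eq_zero]
    change Nat.card (wp.ker : Set F) = 2
    rw [this, Nat.card_coe_set_eq, Set.ncard_pair zero_ne_one]
  have hi : wp.range.index = 2 := by
    have h1 := wp.ker.card_mul_index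
    have h2 := wp.range.card_mul_index
    rw [AddSubgroup.index_ker, hk, ← h2, mul_comm] at h1
    exact (Nat.eq_of_mul_eq_mul_left Nat.card_pos h1).symm
  by_cases h : ∃ c₀, f c₀ ∉ wp.range
  · obtain ⟨c₀, h⟩ := h
    refine ⟨c₀, fun c => ?_⟩
    by_cases hc : f c ∈ wp.range
    · exact Or.inl hc
    · exact Or.inr ((AddSubgroup.add_mem_iff_of_index_two hi).2 (iff_of_false h hc))
  · push Not at h
    exact ⟨Classical.arbitrary α, fun c => Or.inl (h c)⟩

end Wp

section Dye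
variable {F : Type*} [Field F] [Finite F] [CharP F 2] {V : Type*} [AddCommGroup V] [Module F V]
  {B : LinearMap.BilinForm F V} {Q : V → F}

theorem dye_exists (hB : Rep (σ := RingHom.id F) B) (hadd : ∀ x y, Q (x + y) = Q x + Q y + B x y)
    (hsm : ∀ (a : F) x, Q (a • x) = a ^ 2 * Q x) {g : V →ₗ[F] V}
    (hg : ∀ x y, B (g x) (g y) = B x y) :
    ∃ c, ∀ v, Q (g v) + B (g v) c ^ 2 = Q v + B v c ^ 2 := by
  choose rt hrt using exists_sq_two (F := F)
  have h2 : (2 : F) = 0 := CharTwo.two_eq_zero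
  let θ : V →ₗ[F] F :=
    { toFun := fun v => rt (Q (g v) + Q v)
      map_add' := fun x y => sq_inj_two (by
        rw [CharTwo.add_sq, hrt, hrt, hrt, map_add, hadd, hadd, hg]
        linear_combination (B x y) * h2)
      map_smul' := fun a x => sq_inj_two (by
        rw [RingHom.id_apply, smul_eq_mul, mul_pow, hrt, hrt, map_smul, hsm, hsm]; ring) }
  have hθ : ∀ v, θ v ^ 2 = Q (g v) + Q v := fun v => hrt _
  have hmem : θ ∈ (LinearMap.ker (g - LinearMap.id : V →ₗ[F] V)).dualAnnihilator := by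
    rw [Submodule.mem_dualAnnihilator]
    intro w hw
    have : g w = w := by simpa [sub_eq_zero] using hw
    have h0 := hθ w
    rw [this, CharTwo.add_self_eq_zero] at h0
    exact pow_eq_zero_iff two_ne_zero |>.1 h0
  rw [← LinearMap.range_dualMap_eq_dualAnnihilator_ker] at hmem
  obtain ⟨ψ, hψ⟩ := hmem
  obtain ⟨c, hc⟩ := hB ψ
  refine ⟨c, fun v => ?_⟩
  have e : θ v = B (g v) c - B v c := by
    rw [← hψ, LinearMap.dualMap_apply, ← hc]; simp
  have := hθ v
  rw [e] at this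
  linear_combination this + (Q (g v) + B (g v) c * B v c - B v c ^ 2) * h2

theorem dye_equiv (ha : ∀ x, B x x = 0) (hs : ∀ x y, B y x = B x y)
    (hadd : ∀ x y, Q (x + y) = Q x + Q y + B x y)
    (hsm : ∀ (a : F) x, Q (a • x) = a ^ 2 * Q x) {c d : V} {μ : F} (h : μ ^ 2 + μ = Q c + Q d) :
    ∃ t : V →ₗ[F] V, (∀ x y, B (t x) (t y) = B x y) ∧
      ∀ v, Q (t v) + B (t v) c ^ 2 = Q v + B v d ^ 2 := by
  have h2 : (2 : F) = 0 := CharTwo.two_eq_zero
  obtain ⟨l, hl⟩ : ∃ l : F, l + l ^ 2 * (Q (c + d) + B (c + d) c ^ 2) = 1 := by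
    by_cases h0 : Q (c + d) + B (c + d) c ^ 2 = 0
    · exact ⟨1, by rw [h0]; ring⟩
    · refine ⟨(μ + B c d) / (Q (c + d) + B (c + d) c ^ 2), ?_⟩
      field_simp
      rw [hadd, map_add, LinearMap.add_apply, ha, hs c d]
      linear_combination h + (μ * B c d) * h2
  refine ⟨qrefl (σ := RingHom.id F) B (c + d) l, qrefl_isometry (ε := 1) (by simpa using hs)
    (by rw [ha]; simp only [RingHom.id_apply]; linear_combination l * h2), fun v => ?_⟩
  rw [qrefl_apply, hadd, hsm, map_add B, LinearMap.add_apply, map_smul, map_smul,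
    LinearMap.smul_apply, smul_eq_mul, smul_eq_mul]
  have e : B v (c + d) = B v c + B v d := map_add _ _ _
  generalize B (c + d) c = s at *
  generalize Q (c + d) = r at *
  rw [e]
  linear_combination (B v c + B v d) ^ 2 * hl +
    (B v c ^ 2 + B v c * B v d + B v c * l * (B v c + B v d) * s) * h2

theorem dye_proper (hB : ∀ x, (∀ y, B y x = 0) → x = 0) (ha : ∀ x, B x x = 0)
    (hs : ∀ x y, B y x = B x y)
    (hadd : ∀ x y, Q (x + y) = Q x + Q y + B x y)
    (hsm : ∀ (a : F) x, Q (a • x) = a ^ 2 * Q x) {e f : V} (he : e ≠ 0)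
    (hf : ∀ x : F, x • e + f ≠ 0) (hef : B e f = 0) :
    ∃ t : V →ₗ[F] V, (∀ x y, B (t x) (t y) = B x y) ∧ ∃ v, Q (t v) ≠ Q v := by
  have h2 : (2 : F) = 0 := CharTwo.two_eq_zero
  obtain ⟨a, ha0, hQ⟩ : ∃ a, a ≠ 0 ∧ Q a = 0 := by
    by_cases h : Q e = 0
    · exact ⟨e, he, h⟩
    · obtain ⟨x, hx⟩ := exists_sq_two (Q f / Q e)
      refine ⟨x • e + f, hf x, ?_⟩
      rw [hadd, hsm, hx, map_smul, LinearMap.smul_apply, hef, smul_zero, div_mul_cancel₀ _ h]
      linear_combination Q f * h2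
  obtain ⟨v, hv⟩ : ∃ v, B v a ≠ 0 := by
    by_contra h; push Not at h; exact ha0 (hB a h)
  refine ⟨qrefl (σ := RingHom.id F) B a 1, qrefl_isometry (ε := 1) (by simpa using hs)
    (by rw [ha]; simp only [RingHom.id_apply]; linear_combination h2), v, ?_⟩
  rw [qrefl_apply, hadd, hsm, hQ, map_smul, smul_eq_mul]
  intro h
  apply mul_ne_zero hv hv
  linear_combination h

end Dye

section Sp
variable {F : Type*} [Field F] {m : ℕ}

theorem isAct_sp : IsAct (fun (g : symplecticGroup (Fin m) F) v => slin g v) :=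
  ⟨fun x => by rw [slin_one]; rfl, slin_mul_apply⟩

theorem sp_center_smul {z : symplecticGroup (Fin m) F}
    (hz : z ∈ Subgroup.center (symplecticGroup (Fin m) F)) : ∃ c : F, (c = 1 ∨ c = -1) ∧
      ∀ v, slin z v = c • v := by
  rcases (HForm.sp_mem_center_iff' z).1 hz with h | h
  · exact ⟨1, Or.inl rfl, fun v => by rw [slin_apply, h]; simp⟩
  · exact ⟨-1, Or.inr rfl, fun v => by rw [slin_apply, h]; simp [neg_mulVec]⟩

theorem cov_psp_even (F : Type*) [Field F] [Fintype F] [CharP F 2] {m : ℕ} (hm : 2 ≤ m) :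
    Cov2 (PSp m F) := by
  have h2 : (2 : F) = 0 := CharTwo.two_eq_zero
  let B := sympB m F
  let Q : (Fin m ⊕ Fin m → F) → F := fun v => ∑ i, v (.inl i) * v (.inr i)
  have ha : ∀ x, B x x = 0 := sympB_self
  have hs : ∀ x y, B y x = B x y := fun x y => by
    rw [show B y x = -B x y from sympB_swap x y, CharTwo.neg_eq]
  have hrep : Rep (σ := RingHom.id F) B := rep_of_nondegenerate sympB_nondegenerate
  have hadd : ∀ x y, Q (x + y) = Q x + Q y + B x y := fun x y => by
    simp only [Q, B, sympB_eq, ← Finset.sum_add_distrib, Pi.add_apply]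
    exact Finset.sum_congr rfl fun i _ => by
      linear_combination (x (.inl i) * y (.inr i)) * h2
  have hsm : ∀ (a : F) x, Q (a • x) = a ^ 2 * Q x := fun a x => by
    simp only [Q, Finset.mul_sum, Pi.smul_apply, smul_eq_mul]
    exact Finset.sum_congr rfl fun i _ => by ring
  obtain ⟨c₀, hc₀⟩ := exists_wp_class F Q
  let S : (Fin m ⊕ Fin m → F) → Set ((Fin m ⊕ Fin m → F) × F) :=
    fun c => {p | p.2 = Q p.1 + B p.1 c ^ 2}
  have hprop : ∀ c, ∃ g : symplecticGroup (Fin m) F, ∃ x ∈ S c, (slin g x.1, x.2) ∉ S c := by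
    intro c
    obtain ⟨t, ht, v, hv⟩ := dye_proper (B := B) (Q := fun v => Q v + B v c ^ 2)
      (fun x hx => hrep.sepLeft fun y => by rw [← hs]; exact hx y) ha hs
      (fun x y => by rw [hadd, map_add, LinearMap.add_apply, CharTwo.add_sq]; ring)
      (fun a x => by rw [hsm, map_smul, LinearMap.smul_apply, smul_eq_mul]; ring)
      (e := Pi.single (.inl ⟨0, by omega⟩) 1) (f := Pi.single (.inl ⟨1, by omega⟩) 1)
      (fun h => by simpa using congrFun h (.inl ⟨0, by omega⟩))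
      (fun x h => by simpa [Pi.single_apply, Fin.ext_iff] using congrFun h (.inl ⟨1, by omega⟩))
      (by simp [B, sympB_eq])
    obtain ⟨g, rfl⟩ := exists_slin_eq ht
    exact ⟨g, (v, Q v + B v c ^ 2), rfl, fun h => hv h.symm⟩
  have hz : ∀ c, ∀ z ∈ Subgroup.center (symplecticGroup (Fin m) F), ∀ x ∈ S c,
      (slin z x.1, x.2) ∈ S c := by
    intro c z hz x hx
    obtain ⟨a, ha, h⟩ := sp_center_smul hz
    have : a = 1 := by rcases ha with ha | ha; exacts [ha, by rw [ha, CharTwo.neg_eq]]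
    rw [h, this, one_smul]; exact hx
  have hpres : ∀ (g : symplecticGroup (Fin m) F) (c d) (μ : F), μ ^ 2 + μ = Q c + Q d →
      (∀ v, Q (slin g v) + B (slin g v) c ^ 2 = Q v + B v c ^ 2) →
      Pres (fun (g : symplecticGroup (Fin m) F) (x : (Fin m ⊕ Fin m → F) × F) => (slin g x.1, x.2))
        (S d) g := by
    intro g c d μ hμ hg
    obtain ⟨t, ht, ht'⟩ := dye_equiv ha hs hadd hsm hμ
    obtain ⟨y, rfl⟩ := exists_slin_eq ht
    refine pres_of_set isAct_sp.fst y (S c) (fun v => ?_) (fun v hv => ?_)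
    · simp only [S, Set.mem_ofPred_eq, ht']
    · simp only [S, Set.mem_ofPred_eq, hg] at hv ⊢; exact hv
  refine cov_quot isAct_sp.fst isAct_sp.fst (S 0) (S c₀) (hprop _) (hprop _) (hz _) (hz _) ?_
  intro g
  obtain ⟨c, hc⟩ := dye_exists hrep hadd hsm (slin_form g)
  rcases hc₀ c with ⟨μ, hμ⟩ | ⟨μ, hμ⟩
  · exact Or.inl (hpres g c 0 μ (by simp [hμ, Q]) hc)
  · exact Or.inr (hpres g c c₀ μ (by rw [hμ, add_comm]) hc)

end Sp

end Cfsg.Agent.Cov
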