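import Cfsg.Prelude.Def_G2
import Cfsg.Agent.Cov.SpEven

/-! `G₂(q)`, `q` even, is the union of the stabilisers of quadratic étale subalgebras. -/

set_option autoImplicit false

namespace Cfsg.Agent.Cov

open Matrix Cfsg.Lie

variable {F : Type*} [Field F]

/-- The identity of the Zorn algebra. -/
def zOne (F : Type*) [Field F] : Fin 8 → F := ![1, 0, 0, 0, 0, 0, 0, 1]

/-- The trace. -/
def zT (x : Fin 8 → F) : F := x 0 + x 7

/-- The norm. -/
def zN (x : Fin 8 → F) : F := x 0 * x 7 - (x 1 * x 4 + x 2 * x 5 + x 3 * x 6)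

/-- The polar form of the norm. -/
def zP (x y : Fin 8 → F) : F :=
  x 0 * y 7 + x 7 * y 0 - (x 1 * y 4 + x 4 * y 1 + x 2 * y 5 + x 5 * y 2 + x 3 * y 6 + x 6 * y 3)

theorem vec8_ext {x y : Fin 8 → F} (h0 : x 0 = y 0) (h1 : x 1 = y 1) (h2 : x 2 = y 2)
    (h3 : x 3 = y 3) (h4 : x 4 = y 4) (h5 : x 5 = y 5) (h6 : x 6 = y 6) (h7 : x 7 = y 7) :
    x = y := by
  ext i; fin_cases i <;> assumption

theorem zorn0 (x y : Fin 8 → F) :
    zornMul x y 0 = x 0 * y 0 + (x 1 * y 4 + x 2 * y 5 + x 3 * y 6) := rfl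
theorem zorn1 (x y : Fin 8 → F) :
    zornMul x y 1 = x 0 * y 1 + y 7 * x 1 - (x 5 * y 6 - x 6 * y 5) := rfl
theorem zorn2 (x y : Fin 8 → F) :
    zornMul x y 2 = x 0 * y 2 + y 7 * x 2 - (x 6 * y 4 - x 4 * y 6) := rfl
theorem zorn3 (x y : Fin 8 → F) :
    zornMul x y 3 = x 0 * y 3 + y 7 * x 3 - (x 4 * y 5 - x 5 * y 4) := rfl
theorem zorn4 (x y : Fin 8 → F) :
    zornMul x y 4 = y 0 * x 4 + x 7 * y 4 + (x 2 * y 3 - x 3 * y 2) := rfl
theorem zorn5 (x y : Fin 8 → F) :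
    zornMul x y 5 = y 0 * x 5 + x 7 * y 5 + (x 3 * y 1 - x 1 * y 3) := rfl
theorem zorn6 (x y : Fin 8 → F) :
    zornMul x y 6 = y 0 * x 6 + x 7 * y 6 + (x 1 * y 2 - x 2 * y 1) := rfl
theorem zorn7 (x y : Fin 8 → F) :
    zornMul x y 7 = x 4 * y 1 + x 5 * y 2 + x 6 * y 3 + x 7 * y 7 := rfl

theorem zorn_one_mul (x : Fin 8 → F) : zornMul (zOne F) x = x := by
  apply vec8_ext <;>
    simp [zorn0, zorn1, zorn2, zorn3, zorn4, zorn5, zorn6, zorn7, zOne]

theorem zorn_mul_one (x : Fin 8 → F) : zornMul x (zOne F) = x := by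
  apply vec8_ext <;>
    simp [zorn0, zorn1, zorn2, zorn3, zorn4, zorn5, zorn6, zorn7, zOne]

theorem zorn_sq (x : Fin 8 → F) : zornMul x x = zT x • x - zN x • zOne F := by
  apply vec8_ext <;>
    simp [zorn0, zorn1, zorn2, zorn3, zorn4, zorn5, zorn6, zorn7, zOne, zT, zN] <;> ring

theorem zOne_ne : zOne F ≠ 0 := fun h => by simpa [zOne] using congrFun h 0

theorem zN_add (x y : Fin 8 → F) : zN (x + y) = zN x + zN y + zP x y := by
  simp only [zN, zP, Pi.add_apply]; ring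

theorem zP_nondeg {x : Fin 8 → F} (h : ∀ y, zP y x = 0) : x = 0 := by
  have h0 := h (Pi.single 7 1)
  have h1 := h (Pi.single 4 1)
  have h2 := h (Pi.single 5 1)
  have h3 := h (Pi.single 6 1)
  have h4 := h (Pi.single 1 1)
  have h5 := h (Pi.single 2 1)
  have h6 := h (Pi.single 3 1)
  have h7 := h (Pi.single 0 1)
  simp [zP] at h0 h1 h2 h3 h4 h5 h6 h7
  apply vec8_ext <;> assumption

theorem zT_nondeg {x : Fin 8 → F} (h : ∀ y, zT (zornMul x y) = 0) : x = 0 := by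
  have h0 := h (Pi.single 7 1)
  have h1 := h (Pi.single 4 1)
  have h2 := h (Pi.single 5 1)
  have h3 := h (Pi.single 6 1)
  have h4 := h (Pi.single 1 1)
  have h5 := h (Pi.single 2 1)
  have h6 := h (Pi.single 3 1)
  have h7 := h (Pi.single 0 1)
  simp [zT, zorn0, zorn7] at h0 h1 h2 h3 h4 h5 h6 h7
  apply vec8_ext <;> assumption

theorem zP_rep (ψ : (Fin 8 → F) →ₗ[F] F) : ∃ v, ∀ x, ψ x = zP x v := by
  refine ⟨![ψ (Pi.single 7 1), -ψ (Pi.single 4 1), -ψ (Pi.single 5 1), -ψ (Pi.single 6 1),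
    -ψ (Pi.single 1 1), -ψ (Pi.single 2 1), -ψ (Pi.single 3 1), ψ (Pi.single 0 1)], fun x => ?_⟩
  have : x = ∑ i, x i • (Pi.single i 1 : Fin 8 → F) := by
    ext j; simp [Pi.single_apply]
  conv_lhs => rw [this, map_sum]
  simp only [map_smul, smul_eq_mul, Fin.sum_univ_eight, zP]
  simp
  ring

/-- The action of `G₂` on the octonions. -/
def gact (g : G2 F) (x : Fin 8 → F) : Fin 8 → F := (g.1 : Matrix (Fin 8) (Fin 8) F) *ᵥ x

theorem isAct_g2 : IsAct (gact (F := F)) :=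
  ⟨fun x => by simp [gact], fun g h x => by simp [gact]⟩

theorem gact_mul (g : G2 F) (x y : Fin 8 → F) :
    gact g (zornMul x y) = zornMul (gact g x) (gact g y) := g.2 x y

theorem gact_add (g : G2 F) (x y : Fin 8 → F) : gact g (x + y) = gact g x + gact g y :=
  mulVec_add _ _ _

theorem gact_sub (g : G2 F) (x y : Fin 8 → F) : gact g (x - y) = gact g x - gact g y :=
  mulVec_sub _ _ _

theorem gact_smul (g : G2 F) (a : F) (x : Fin 8 → F) : gact g (a • x) = a • gact g x :=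
  mulVec_smul _ _ _

theorem gact_inv (g : G2 F) (x : Fin 8 → F) : gact g (gact g⁻¹ x) = x := by
  rw [← isAct_g2.mul, mul_inv_cancel, isAct_g2.one]

theorem gact_inv' (g : G2 F) (x : Fin 8 → F) : gact g⁻¹ (gact g x) = x := by
  rw [← isAct_g2.mul, inv_mul_cancel, isAct_g2.one]

theorem gact_one (g : G2 F) : gact g (zOne F) = zOne F := by
  have := gact_mul g (zOne F) (gact g⁻¹ (zOne F))
  rw [zorn_one_mul, gact_inv, zorn_mul_one] at this
  exact this.symm

theorem gact_TN (g : G2 F) (x : Fin 8 → F) : zT (gact g x) = zT x ∧ zN (gact g x) = zN x := by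
  have h := gact_mul g x x
  rw [zorn_sq, zorn_sq, gact_sub, gact_smul, gact_smul, gact_one] at h
  have h' : (zT x - zT (gact g x)) • gact g x = (zN x - zN (gact g x)) • zOne F := by
    rw [sub_smul, sub_smul, sub_eq_sub_iff_sub_eq_sub, h]
  by_cases hT : zT x - zT (gact g x) = 0
  · rw [hT, zero_smul, eq_comm, smul_eq_zero] at h'
    exact ⟨(sub_eq_zero.1 hT).symm, (sub_eq_zero.1 (h'.resolve_right zOne_ne)).symm⟩
  · exfalso
    have e : gact g x = ((zT x - zT (gact g x))⁻¹ * (zN x - zN (gact g x))) • zOne F := by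
      rw [mul_smul, ← h', smul_smul, inv_mul_cancel₀ hT, one_smul]
    have e2 := congrArg (gact g⁻¹) e
    rw [gact_inv', gact_smul, gact_one, ← e] at e2
    exact hT (by rw [← e2, sub_self])

theorem gact_P (g : G2 F) (x y : Fin 8 → F) : zP (gact g x) (gact g y) = zP x y := by
  have h := (gact_TN g (x + y)).2
  rw [gact_add, zN_add, zN_add, (gact_TN g x).2, (gact_TN g y).2] at h
  linear_combination h

theorem exists_fix_coset (g : G2 F) : ∃ x, zT x = 1 ∧ ∃ c : F, gact g x = x + c • zOne F := by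
  let W : Submodule F (Fin 8 → F) := Submodule.span F {zOne F}
  let Φ : (Fin 8 → F) →ₗ[F] (Fin 8 → F) ⧸ W :=
    W.mkQ ∘ₗ (Matrix.toLin' (g.1 : Matrix (Fin 8) (Fin 8) F) - LinearMap.id)
  have hΦ : ∀ x, Φ x = W.mkQ (gact g x - x) := fun x => by simp [Φ, gact]
  let T : (Fin 8 → F) →ₗ[F] F :=
    (LinearMap.proj (R := F) (φ := fun _ : Fin 8 => F) 0) +
      (LinearMap.proj (R := F) (φ := fun _ : Fin 8 => F) 7)
  have hT : ∀ x, T x = zT x := fun x => rfl
  by_cases hmem : T ∈ (LinearMap.ker Φ).dualAnnihilator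
  · exfalso
    rw [← LinearMap.range_dualMap_eq_dualAnnihilator_ker] at hmem
    obtain ⟨ψ, hψ⟩ := hmem
    obtain ⟨v, hv⟩ := zP_rep (ψ ∘ₗ W.mkQ)
    have h1 : zT v = 0 := by
      have := hv (zOne F)
      rw [LinearMap.comp_apply, W.mkQ_apply, (Submodule.Quotient.mk_eq_zero W).2
        (Submodule.mem_span_singleton_self _), map_zero] at this
      simp [zP, zOne] at this
      rw [zT]; linear_combination -this
    have h2 : gact g⁻¹ v - v - zOne F = 0 := by
      apply zP_nondeg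
      intro x
      have e1 := hv (gact g x - x)
      rw [LinearMap.comp_apply, ← hΦ, ← LinearMap.dualMap_apply, hψ, hT] at e1
      have e2 := gact_P g x (gact g⁻¹ v)
      rw [gact_inv] at e2
      simp only [zP, zT, zOne, Pi.sub_apply] at e1 e2 ⊢
      simp
      linear_combination -e1 - e2
    have h3 := (gact_TN g⁻¹ v).2
    rw [show gact g⁻¹ v = v + zOne F by rw [← sub_eq_zero, ← h2]; abel, zN_add] at h3
    simp [zP, zN, zOne] at h3
    rw [zT] at h1
    exact one_ne_zero (α := F) (by linear_combination h3 - h1)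
  · rw [Submodule.mem_dualAnnihilator] at hmem
    push Not at hmem
    obtain ⟨x, hx, hx'⟩ := hmem
    rw [LinearMap.mem_ker, hΦ, W.mkQ_apply, Submodule.Quotient.mk_eq_zero,
      Submodule.mem_span_singleton] at hx
    obtain ⟨c, hc⟩ := hx
    refine ⟨(T x)⁻¹ • x, by rw [← hT, map_smul, smul_eq_mul, inv_mul_cancel₀ hx'],
      (T x)⁻¹ * c, ?_⟩
    rw [gact_smul, mul_smul, hc, ← smul_add, add_sub_cancel]

theorem exists_g2 (f : (Fin 8 → F) → (Fin 8 → F)) (hadd : ∀ x y, f (x + y) = f x + f y)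
    (hsm : ∀ (a : F) x, f (a • x) = a • f x)
    (hm : ∀ x y, f (zornMul x y) = zornMul (f x) (f y)) (hT : ∀ x, zT (f x) = zT x) :
    ∃ g : G2 F, ∀ x, gact g x = f x := by
  let L : (Fin 8 → F) →ₗ[F] (Fin 8 → F) := ⟨⟨f, hadd⟩, hsm⟩
  have hL : ∀ x, LinearMap.toMatrix' L *ᵥ x = f x := fun x => by
    rw [← Matrix.toLin'_apply, Matrix.toLin'_toMatrix']; rfl
  have hdet : (LinearMap.toMatrix' L).det ≠ 0 := by
    intro h
    obtain ⟨v, hv, e⟩ := exists_mulVec_eq_zero_iff.2 h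
    rw [hL] at e
    refine hv (zT_nondeg fun y => ?_)
    rw [← hT, hm, e]
    simp [zT, zorn0, zorn7]
  refine ⟨⟨GeneralLinearGroup.mkOfDetNeZero _ hdet, fun x y => ?_⟩, hL⟩
  change LinearMap.toMatrix' L *ᵥ _ = zornMul (LinearMap.toMatrix' L *ᵥ _) (LinearMap.toMatrix' L *ᵥ _)
  rw [hL, hL, hL, hm]

/-- Root element of the first kind. -/
def zd1 (p q r : F) (x : Fin 8 → F) : Fin 8 → F :=
  ![x 0 - (p * x 4 + q * x 5 + r * x 6),
    x 1 + (x 0 - x 7 - (p * x 4 + q * x 5 + r * x 6)) * p,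
    x 2 + (x 0 - x 7 - (p * x 4 + q * x 5 + r * x 6)) * q,
    x 3 + (x 0 - x 7 - (p * x 4 + q * x 5 + r * x 6)) * r,
    x 4 - (x 2 * r - x 3 * q), x 5 - (x 3 * p - x 1 * r), x 6 - (x 1 * q - x 2 * p),
    x 7 + (p * x 4 + q * x 5 + r * x 6)]

/-- Root element of the second kind. -/
def zd2 (p q r : F) (x : Fin 8 → F) : Fin 8 → F :=
  ![x 0 - (p * x 1 + q * x 2 + r * x 3),
    x 1 - (x 5 * r - x 6 * q), x 2 - (x 6 * p - x 4 * r), x 3 - (x 4 * q - x 5 * p),
    x 4 + (x 0 - x 7 - (p * x 1 + q * x 2 + r * x 3)) * p,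
    x 5 + (x 0 - x 7 - (p * x 1 + q * x 2 + r * x 3)) * q,
    x 6 + (x 0 - x 7 - (p * x 1 + q * x 2 + r * x 3)) * r,
    x 7 + (p * x 1 + q * x 2 + r * x 3)]

/-- The action of `SL₃`. -/
def zd3 (a b c d e f g h i : F) (x : Fin 8 → F) : Fin 8 → F :=
  ![x 0,
    (e * i - f * h) * x 1 + (f * g - d * i) * x 2 + (d * h - e * g) * x 3,
    (c * h - b * i) * x 1 + (a * i - c * g) * x 2 + (b * g - a * h) * x 3,
    (b * f - c * e) * x 1 + (c * d - a * f) * x 2 + (a * e - b * d) * x 3,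
    a * x 4 + b * x 5 + c * x 6, d * x 4 + e * x 5 + f * x 6, g * x 4 + h * x 5 + i * x 6,
    x 7]

theorem exists_zd1 (p q r : F) : ∃ g : G2 F, ∀ x, gact g x = zd1 p q r x := by
  refine exists_g2 _ (fun x y => ?_) (fun a x => ?_) (fun x y => ?_) (fun x => ?_)
  · apply vec8_ext <;> simp [zd1] <;> ring
  · apply vec8_ext <;> simp [zd1] <;> ring
  · apply vec8_ext <;>
      simp [zd1, zorn0, zorn1, zorn2, zorn3, zorn4, zorn5, zorn6, zorn7] <;> ring
  · simp [zd1, zT]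

theorem exists_zd2 (p q r : F) : ∃ g : G2 F, ∀ x, gact g x = zd2 p q r x := by
  refine exists_g2 _ (fun x y => ?_) (fun a x => ?_) (fun x y => ?_) (fun x => ?_)
  · apply vec8_ext <;> simp [zd2] <;> ring
  · apply vec8_ext <;> simp [zd2] <;> ring
  · apply vec8_ext <;>
      simp [zd2, zorn0, zorn1, zorn2, zorn3, zorn4, zorn5, zorn6, zorn7] <;> ring
  · simp [zd2, zT]

theorem exists_zd3 {a b c d e f g h i : F}
    (hd : a * e * i - a * f * h - b * d * i + b * f * g + c * d * h - c * e * g = 1) :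
    ∃ k : G2 F, ∀ x, gact k x = zd3 a b c d e f g h i x := by
  refine exists_g2 _ (fun x y => ?_) (fun a x => ?_) (fun x y => ?_) (fun x => ?_)
  · apply vec8_ext <;> simp [zd3] <;> ring
  · apply vec8_ext <;> simp [zd3] <;> ring
  · apply vec8_ext <;>
      simp [zd3, zorn0, zorn1, zorn2, zorn3, zorn4, zorn5, zorn6, zorn7]
    · linear_combination -(x 1 * y 4 + x 2 * y 5 + x 3 * y 6) * hd
    · ring
    · ring
    · ring
    · linear_combination -(a * (x 2 * y 3 - x 3 * y 2) + b * (x 3 * y 1 - x 1 * y 3) +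
        c * (x 1 * y 2 - x 2 * y 1)) * hd
    · linear_combination -(d * (x 2 * y 3 - x 3 * y 2) + e * (x 3 * y 1 - x 1 * y 3) +
        f * (x 1 * y 2 - x 2 * y 1)) * hd
    · linear_combination -(g * (x 2 * y 3 - x 3 * y 2) + h * (x 3 * y 1 - x 1 * y 3) +
        i * (x 1 * y 2 - x 2 * y 1)) * hd
    · linear_combination -(x 4 * y 1 + x 5 * y 2 + x 6 * y 3) * hd
  · simp [zd3, zT]

/-- Standard element of trace one and norm `c`. -/
def zStd (c : F) : Fin 8 → F := ![0, -c, 0, 0, 1, 0, 0, 1]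

/-- `x` lies in the orbit of the standard element. -/
def Std (x : Fin 8 → F) : Prop := ∃ g : G2 F, gact g x = zStd (zN x)

theorem Std.of_act (g : G2 F) {x : Fin 8 → F} (h : Std (gact g x)) : Std x := by
  obtain ⟨k, hk⟩ := h
  exact ⟨k * g, by rw [isAct_g2.mul, hk, (gact_TN g x).2]⟩

theorem std_a {x : Fin 8 → F} (h0 : x 0 = 0) (h2 : x 2 = 0) (h3 : x 3 = 0) (h4 : x 4 = 1)
    (h7 : x 7 = 1) : Std x := by
  obtain ⟨g, hg⟩ := exists_zd3 (a := 1) (b := 0) (c := 0) (d := -x 5) (e := 1) (f := 0)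
    (g := -x 6) (h := 0) (i := 1) (by ring)
  refine ⟨g, ?_⟩
  rw [hg]
  apply vec8_ext <;> simp [zd3, zStd, zN, h0, h2, h3, h4, h7]

theorem std_b {x : Fin 8 → F} (h0 : x 0 = 0) (h4 : x 4 = 1) (h5 : x 5 = 0) (h6 : x 6 = 0)
    (h7 : x 7 = 1) : Std x := by
  obtain ⟨g, hg⟩ := exists_zd1 0 (x 2) (x 3)
  refine Std.of_act g ?_
  rw [hg]
  apply std_a <;> simp [zd1, h0, h4, h5, h6, h7]
  ring

theorem std_c {x : Fin 8 → F} (h0 : x 0 = 0) (hb : ![x 4, x 5, x 6] ≠ 0) (h7 : x 7 = 1) :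
    Std x := by
  obtain ⟨A, hA⟩ := GLn.exists_sl_single (n := 3) (by norm_num) hb
    (w := ![1, 0, 0]) (fun h => by simpa using congrFun h 0)
  have hd := A.2
  rw [det_fin_three] at hd
  obtain ⟨g, hg⟩ := exists_zd3 hd
  refine Std.of_act g ?_
  rw [hg]
  have e0 := congrFun hA 0
  have e1 := congrFun hA 1
  have e2 := congrFun hA 2
  simp [mulVec, dotProduct, Fin.sum_univ_three] at e0 e1 e2
  apply std_b <;> simp [zd3, h0, h7, e0, e1, e2]

theorem std_d {x : Fin 8 → F} (hb : ![x 4, x 5, x 6] ≠ 0) (hT : zT x = 1) : Std x := by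
  rw [zT] at hT
  by_cases h0 : x 0 = 0
  · exact std_c h0 hb (by rw [← hT, h0, zero_add])
  obtain ⟨p, q, r, h⟩ : ∃ p q r, p * x 4 + q * x 5 + r * x 6 = x 0 := by
    by_cases h4 : x 4 = 0
    · by_cases h5 : x 5 = 0
      · have h6 : x 6 ≠ 0 := fun h6 => hb (by ext i; fin_cases i <;> simp [h4, h5, h6])
        exact ⟨0, 0, x 0 / x 6, by field_simp; ring⟩
      · exact ⟨0, x 0 / x 5, 0, by field_simp; ring⟩
    · exact ⟨x 0 / x 4, 0, 0, by field_simp; ring⟩
  obtain ⟨g, hg⟩ := exists_zd1 p q r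
  refine Std.of_act g ?_
  rw [hg]
  refine std_c (by simp [zd1, h]) (fun hb' => h0 ?_) (by simp [zd1, h, ← hT, add_comm])
  have e0 := congrFun hb' 0
  have e1 := congrFun hb' 1
  have e2 := congrFun hb' 2
  simp [zd1] at e0 e1 e2
  linear_combination -h + p * e0 + q * e1 + r * e2

theorem std_all [CharP F 2] {x : Fin 8 → F} (hT : zT x = 1) : Std x := by
  have h2 : (2 : F) = 0 := CharTwo.two_eq_zero
  by_cases hb : ![x 4, x 5, x 6] = 0
  swap
  · exact std_d hb hT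
  have e4 : x 4 = 0 := congrFun hb 0
  have e5 : x 5 = 0 := congrFun hb 1
  have e6 : x 6 = 0 := congrFun hb 2
  obtain ⟨p, q, h, hpq⟩ : ∃ p q : F, p * x 1 + q * x 2 = 0 ∧ (p ≠ 0 ∨ q ≠ 0) := by
    by_cases h1 : x 1 = 0
    · exact ⟨1, 0, by simp [h1], Or.inl one_ne_zero⟩
    · exact ⟨x 2, -x 1, by ring, Or.inr (neg_ne_zero.2 h1)⟩
  obtain ⟨g, hg⟩ := exists_zd2 p q 0
  refine Std.of_act g (std_d ?_ (by rw [(gact_TN g x).1, hT]))
  rw [hg]
  intro hb'
  have e0 := congrFun hb' 0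
  have e1 := congrFun hb' 1
  rw [zT] at hT
  have e : x 0 - x 7 = 1 := by linear_combination hT - x 7 * h2
  simp [zd2, e4, e5, h, e] at e0 e1
  tauto

theorem cov_g2 (F : Type*) [Field F] [Fintype F] [CharP F 2] : Cov2 (G2 F) := by
  have h2 : (2 : F) = 0 := CharTwo.two_eq_zero
  obtain ⟨c₀, hc₀⟩ := exists_wp_class F (fun c : F => c)
  let S : F → Set (Fin 8 → F) := fun c => {x | x = zStd c ∨ x = zStd c + zOne F}
  have hprop : ∀ c, ∃ g : G2 F, ∃ x ∈ S c, gact g x ∉ S c := by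
    intro c
    obtain ⟨g, hg⟩ := exists_zd1 (0 : F) 1 0
    refine ⟨g, zStd c, Or.inl rfl, ?_⟩
    rw [hg]
    rintro (h | h) <;> simpa [zd1, zStd, zOne] using congrFun h 2
  have hN : ∀ (x : Fin 8 → F) (μ : F), zN (x + μ • zOne F) = zN x + μ * zT x + μ ^ 2 := by
    intro x μ; simp [zN, zT, zOne]; ring
  have hTT : ∀ (x : Fin 8 → F) (μ : F), zT (x + μ • zOne F) = zT x := by
    intro x μ; simp [zT, zOne]; linear_combination μ * h2
  have h11 : zOne F + zOne F = 0 := by rw [← two_smul F, h2, zero_smul]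
  have hpres : ∀ (g : G2 F) (x : Fin 8 → F) (c : F), zT x = 1 → gact g x = x + c • zOne F →
      Pres gact (S (zN x)) g := by
    intro g x c hT hg
    obtain ⟨y, hy⟩ := std_all hT
    have hc : c = 0 ∨ c = 1 := by
      have := (gact_TN g x).2
      rw [hg, hN, hT] at this
      have : c * (c + 1) = 0 := by linear_combination this
      rwa [mul_eq_zero, CharTwo.add_eq_zero] at this
    have hy' : gact y⁻¹ (zStd (zN x)) = x := by rw [← hy, gact_inv']
    refine ⟨y⁻¹, ?_⟩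
    rintro v (rfl | rfl) <;> rcases hc with rfl | rfl
    · exact ⟨_, Or.inl rfl, by rw [hy', hg]; simp⟩
    · exact ⟨_, Or.inr rfl, by rw [gact_add, hy', hg, gact_one]; simp⟩
    · exact ⟨_, Or.inr rfl, by rw [gact_add, hy', gact_one, gact_add, hg, gact_one]; simp⟩
    · exact ⟨_, Or.inl rfl, by
        rw [gact_add, hy', gact_one, gact_add, hg, gact_one, one_smul, add_assoc, h11, add_zero]⟩
  refine cov_of_act isAct_g2 isAct_g2 (S 0) (S c₀) (hprop _) (hprop _) fun g => ?_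
  obtain ⟨x, hT, c, hc⟩ := exists_fix_coset g
  have key : ∀ μ : F, Pres gact (S (zN x + μ + μ ^ 2)) g := by
    intro μ
    have := hpres g (x + μ • zOne F) c (by rw [hTT, hT]) (by
      rw [gact_add, gact_smul, gact_one, hc]; abel)
    rwa [hN, hT, mul_one] at this
  rcases hc₀ (zN x) with ⟨μ, hμ⟩ | ⟨μ, hμ⟩
  · left
    have := key μ
    rwa [show zN x + μ + μ ^ 2 = 0 by linear_combination hμ + zN x * h2] at this
  · right
    have := key μ
    rwa [show zN x + μ + μ ^ 2 = c₀ by linear_combination hμ + zN x * h2] at this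

end Cfsg.Agent.Cov
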