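import Cfsg.Agent.Cov.Basic
import Cfsg.Agent.Forms.UClass
import Cfsg.Agent.Forms.UnitGroup
import Cfsg.Agent.HForm.USpec
import Cfsg.Agent.Thm.RU
import Cfsg.Agent.Fac.LevU

/-! Invariant subspaces of unitary maps in small dimension. -/

set_option autoImplicit false

namespace Cfsg.Agent.Cov

open Polynomial Module Cfsg.Agent.Forms Cfsg.Agent.HForm

section Gen
variable {F : Type*} [Field F] {σ : F →+* F} {V : Type*} [AddCommGroup V] [Module F V]
  [FiniteDimensional F V] {B : V →ₗ[F] V →ₛₗ[σ] F}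

omit [FiniteDimensional F V] in
theorem isom_inj (hnd : ∀ x, (∀ y, B x y = 0) → x = 0) {g : V →ₗ[F] V}
    (hg : ∀ x y, B (g x) (g y) = B x y) {x : V} (h : g x = 0) : x = 0 :=
  hnd x fun y => by rw [← hg, h]; simp

theorem eig_of_root {g : V →ₗ[F] V} {a : F} (h : g.charpoly.IsRoot a) :
    ∃ v, v ≠ 0 ∧ g v = a • v := by
  obtain ⟨v, hv⟩ := ((Module.End.hasEigenvalue_iff_isRoot_charpoly g a).2 h).exists_hasEigenvector
  exact ⟨v, hv.2, hv.apply_eq_smul⟩

theorem root_of_eig {g : V →ₗ[F] V} {a : F} {v : V} (hv : v ≠ 0) (h : g v = a • v) :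
    g.charpoly.IsRoot a :=
  (Module.End.hasEigenvalue_iff_isRoot_charpoly g a).1
    (Module.End.hasEigenvalue_of_hasEigenvector ⟨Module.End.mem_eigenspace_iff.2 h, hv⟩)

theorem det_qrefl' (d : V) (c : F) : LinearMap.det (qrefl B d c) = 1 + c * B d d := by
  exact Fac.det_rank_one (c • B.flip d) d

/-- Reduction along an isotropic eigenvector. -/
theorem iso_reduce (hσ : ∀ a, σ (σ a) = a) (hs : ∀ x y, B y x = σ (B x y))
    (hnd : ∀ x, (∀ y, B x y = 0) → x = 0) {g : V →ₗ[F] V} (hg : ∀ x y, B (g x) (g y) = B x y)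
    {v : V} {l : F} (hv : v ≠ 0) (hgv : g v = l • v) (hvv : B v v = 0) :
    ∃ (W : Submodule F V) (h : W →ₗ[F] W), finrank F W + 2 = finrank F V ∧
      (∀ x : W, (∀ y : W, B x y = 0) → x = 0) ∧ (∀ x y : W, B (h x) (h y) = B x y) ∧
      (∀ x : W, B x v = 0 ∧ ∃ k : F, g x = h x + k • v) ∧
      (∀ x, B x v = 0 → ∃ (w : W) (a : F), x = w + a • v) ∧ v ∉ W := by
  obtain ⟨v', hv'⟩ : ∃ v', B v v' = 1 := by
    obtain ⟨y, hy⟩ : ∃ y, B v y ≠ 0 := by
      by_contra h; push Not at h; exact hv (hnd v h)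
    exact ⟨σ (B v y)⁻¹ • y, by rw [map_smulₛₗ, hσ, smul_eq_mul, inv_mul_cancel₀ hy]⟩
  have hv'' : B v' v = 1 := by rw [hs, hv', map_one]
  have hl : l ≠ 0 := by
    rintro rfl
    exact hv (isom_inj hnd hg (by rw [hgv, zero_smul]))
  have hgx : ∀ x, B x v = 0 → B (g x) v = 0 := by
    intro x hx
    have := hg x v
    rw [hgv, map_smulₛₗ, hx, smul_eq_mul, mul_eq_zero] at this
    exact this.resolve_left ((map_ne_zero σ).2 hl)
  let φ : V →ₗ[F] F × F := (B.flip v).prod (B.flip v')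
  have hφ : ∀ x, x ∈ LinearMap.ker φ ↔ B x v = 0 ∧ B x v' = 0 := fun x => by
    simp [φ, Prod.ext_iff]
  have hdec : ∀ y, y - (B y v' - B y v * B v' v') • v - B y v • v' ∈ LinearMap.ker φ := by
    intro y
    rw [hφ]
    simp only [map_sub, map_smul, LinearMap.sub_apply, LinearMap.smul_apply, hvv, hv', hv'',
      smul_eq_mul]
    constructor <;> ring
  let π : V →ₗ[F] V := g - (B.flip v' ∘ₗ g).smulRight v
  have hπ : ∀ x, π x = g x - B (g x) v' • v := fun x => by simp [π]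
  have hmem : ∀ x ∈ LinearMap.ker φ, π x ∈ LinearMap.ker φ := by
    intro x hx
    rw [hφ] at hx ⊢
    simp [hπ, hgx x hx.1, hvv, hv']
  refine ⟨LinearMap.ker φ, π.restrict hmem, ?_, ?_, ?_, ?_, ?_, ?_⟩
  · have h1 := φ.finrank_range_add_finrank_ker
    have h2 : LinearMap.range φ = ⊤ := by
      rw [LinearMap.range_eq_top]
      rintro ⟨a, b⟩
      refine ⟨(b - a * B v' v') • v + a • v', ?_⟩
      simp [φ, hvv, hv', hv'']
    rw [h2, finrank_top] at h1
    simp at h1
    omega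
  · intro x hx
    refine Subtype.ext (hnd _ fun y => ?_)
    have h1 := hx ⟨_, hdec y⟩
    obtain ⟨h2, h3⟩ := (hφ x).1 x.2
    simpa [h2, h3] using h1
  · intro x y
    have h1 := hgx _ ((hφ x).1 x.2).1
    have h2 := hgx _ ((hφ y).1 y.2).1
    have h3 : B v (g y) = 0 := by rw [hs, h2, map_zero]
    simp [hπ, h1, h3, hvv, hg]
  · intro x
    exact ⟨((hφ x).1 x.2).1, B (g x) v', by simp [hπ]⟩
  · intro x hx
    refine ⟨⟨_, hdec x⟩, B x v', ?_⟩
    simp [hx]
  · rw [hφ, hv']; simp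

theorem exists_isotropic_partner (hσ : ∀ a, σ (σ a) = a) (hne : ∃ θ, σ θ ≠ θ)
    (hs : ∀ x y, B y x = σ (B x y)) (hnd : ∀ x, (∀ y, B x y = 0) → x = 0) {a : V} (ha : a ≠ 0)
    (haa : B a a = 0) : ∃ a', B a a' = 1 ∧ B a' a' = 0 := by
  obtain ⟨v', hv'⟩ : ∃ v', B a v' = 1 := by
    obtain ⟨y, hy⟩ : ∃ y, B a y ≠ 0 := by
      by_contra h; push Not at h; exact ha (hnd a h)
    exact ⟨σ (B a y)⁻¹ • y, by rw [map_smulₛₗ, hσ, smul_eq_mul, inv_mul_cancel₀ hy]⟩
  have hv'' : B v' a = 1 := by rw [hs, hv', map_one]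
  obtain ⟨ν, -, hν⟩ := exists_trace_eq hσ hne (c := -B v' v') (by rw [map_neg, ← hs])
  refine ⟨v' + ν • a, by simp [hv', haa], ?_⟩
  simp only [map_add, map_smul, map_smulₛₗ, LinearMap.add_apply, LinearMap.smul_apply, hv', hv'',
    haa, smul_eq_mul, RingHom.id_apply]
  linear_combination hν

theorem exists_iso_det [Finite F] (hσ : ∀ a, σ (σ a) = a) (hne : ∃ θ, σ θ ≠ θ)
    (hs : ∀ x y, B y x = σ (B x y)) (hnd : ∀ x, (∀ y, B x y = 0) → x = 0) {a : V} (ha : a ≠ 0)
    (haa : B a a = 0) {δ : F} (hδ : δ * σ δ = 1) :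
    ∃ h : V →ₗ[F] V, (∀ x y, B (h x) (h y) = B x y) ∧ LinearMap.det h = δ ∧
      ∀ x, B x a = 0 → ∃ c : F, h x = x + c • a := by
  obtain ⟨a', h1, h2⟩ := exists_isotropic_partner hσ hne hs hnd ha haa
  have h3 : B a' a = 1 := by rw [hs, h1, map_one]
  obtain ⟨t, ht⟩ := exists_div_tau hσ hne hδ
  have ht0 : (t : F) ≠ 0 := t.ne_zero
  have ht1 : σ t ≠ 0 := (map_ne_zero σ).2 ht0
  let h₁ : V →ₗ[F] V := 1 + (((t : F) - 1) • B.flip a').smulRight a
  let h₂ : V →ₗ[F] V := 1 + (((σ t)⁻¹ - 1) • B.flip a).smulRight a'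
  have e : ∀ x, (h₁ * h₂) x =
      x + (((t : F) - 1) * B x a') • a + (((σ t)⁻¹ - 1) * B x a) • a' := by
    intro x
    simp [h₁, h₂, h2]
    abel
  refine ⟨h₁ * h₂, fun x y => ?_, ?_, fun x hx => ⟨_, by rw [e, hx, mul_zero, zero_smul, add_zero]⟩⟩
  · rw [e, e]
    simp only [map_add, map_smul, map_smulₛₗ, LinearMap.add_apply, LinearMap.smul_apply, h1, h2,
      h3, haa, smul_eq_mul, RingHom.id_apply, map_mul, map_sub, map_one, map_inv₀, hσ, ← hs]
    field_simp
    ring
  · rw [map_mul, Fac.det_rank_one, Fac.det_rank_one, ht]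
    simp [h1, h3, div_eq_mul_inv]

end Gen

section Fin
variable {F : Type*} [Field F] [Fintype F] {q : ℕ} (hF : Fintype.card F = q ^ 2)
  {V : Type*} [AddCommGroup V] [Module F V] [FiniteDimensional F V]
  {B : V →ₗ[F] V →ₛₗ[frobq hF] F}

theorem evs_abs (hnd : ∀ x, (∀ y, B x y = 0) → x = 0) {g : V →ₗ[F] V}
    (hg : ∀ x y, B (g x) (g y) = B x y) (K : Type*) [Field K] [Algebra F K] [IsAlgClosed K] :
    (g.charpoly.aroots K).map (uf q) = g.charpoly.aroots K := by
  let b := Module.finBasis F V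
  obtain ⟨τK, hτK⟩ := exists_tau hF K
  have := evs_isom K (frobq hF) τK (fun a => by rw [hτK, frobq_apply, map_pow]) (gram B b) _
    (gram_det_ne_zero B b hnd) (gram_isom B b g hg)
  rw [LinearMap.charpoly_toMatrix] at this
  simpa [hτK] using this

include hF in
theorem uf_uf {K : Type*} [Field K] (x : K) : uf q (uf q x) = x ^ Fintype.card F := by
  simp only [uf, inv_pow, inv_inv, ← pow_mul, hF, sq]

include hF in
theorem uf_inj {K : Type*} [Field K] [Algebra F K] : Function.Injective (uf q : K → K) := by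
  intro x y h
  apply frob_injective (F := F)
  change x ^ _ = y ^ _
  rw [← uf_uf hF, ← uf_uf hF, h]

include hF in
theorem root_of_uf {K : Type*} [Field K] [Algebra F K] [IsAlgClosed K] {P : F[X]} {x : K}
    (hx : x ∈ P.aroots K) (h : uf q (uf q x) = x) : ∃ a, P.IsRoot a := by
  rw [uf_uf hF] at h
  obtain ⟨a, rfl⟩ := mem_range_of_pow_card x h
  refine ⟨a, ?_⟩
  have := (mem_aroots.1 hx).2
  rwa [aeval_algebraMap_apply, map_eq_zero, coe_aeval_eq_eval] at this

theorem two_dim_eig (hnd : ∀ x, (∀ y, B x y = 0) → x = 0) {g : V →ₗ[F] V}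
    (hg : ∀ x y, B (g x) (g y) = B x y) (h2 : finrank F V = 2) :
    ∃ v a, v ≠ 0 ∧ g v = (a : F) • v := by
  classical
  let K := AlgebraicClosure F
  have hR := evs_abs hF hnd hg K
  have hc : (g.charpoly.aroots K).card = 2 := by
    rw [card_aroots_eq, LinearMap.charpoly_natDegree, h2]
  obtain ⟨x, hx⟩ := Multiset.card_pos_iff_exists_mem.1 (hc ▸ two_pos)
  obtain ⟨d, R', hd, hfix, -, hR', -⟩ := exists_orb (uf_inj hF) hR hx
  have h1 := congrArg Multiset.card hR'
  have h0 := Multiset.count_pos.2 hx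
  rw [hc, Multiset.card_add, Multiset.card_nsmul, card_orb] at h1
  have hd2 : d = 1 ∨ d = 2 := by
    have : d ≤ 2 := by nlinarith
    omega
  obtain ⟨a, ha⟩ := root_of_uf hF hx (by
    rcases hd2 with rfl | rfl
    · have : uf q x = x := hfix
      rw [this, this]
    · exact hfix)
  obtain ⟨v, hv, e⟩ := eig_of_root ha
  exact ⟨v, a, hv, e⟩

theorem four_dim_quad (hnd : ∀ x, (∀ y, B x y = 0) → x = 0) {g : V →ₗ[F] V}
    (hg : ∀ x y, B (g x) (g y) = B x y) (h4 : finrank F V = 4)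
    (hr : ∀ a, ¬ g.charpoly.IsRoot a) :
    ∃ u, u ≠ 0 ∧ ∃ s t : F, g (g u) = s • g u + t • u := by
  classical
  let K := AlgebraicClosure F
  have hR := evs_abs hF hnd hg K
  have hc : (g.charpoly.aroots K).card = 4 := by
    rw [card_aroots_eq, LinearMap.charpoly_natDegree, h4]
  obtain ⟨x, hx⟩ := Multiset.card_pos_iff_exists_mem.1 (hc ▸ four_pos)
  obtain ⟨d, R', hd, hfix, hnodup, hR', hR'', -⟩ := exists_orb (uf_inj hF) hR hx
  have h1 := congrArg Multiset.card hR'
  have h0 := Multiset.count_pos.2 hx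
  rw [hc, Multiset.card_add, Multiset.card_nsmul, card_orb] at h1
  have hno : ∀ y ∈ g.charpoly.aroots K, uf q (uf q y) ≠ y := fun y hy h => by
    obtain ⟨a, ha⟩ := root_of_uf hF hy h
    exact hr a ha
  have hd4 : d = 4 := by
    have : d ≤ 4 := by nlinarith
    interval_cases d
    · have : uf q x = x := hfix
      exact absurd (by rw [this, this]) (hno x hx)
    · exact absurd hfix (hno x hx)
    · exfalso
      obtain ⟨y, hy⟩ := Multiset.card_eq_one.1 (show R'.card = 1 by omega)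
      rw [hy, Multiset.map_singleton, Multiset.singleton_inj] at hR''
      exact hno y (by rw [hR', hy]; simp) (by rw [hR'', hR''])
    · rfl
  subst hd4
  have hfix' : uf q (uf q (uf q (uf q x))) = x := hfix
  obtain ⟨P, hP, -, hPr, hPd⟩ := exists_poly_of_frob (F := F) ({x, uf q (uf q x)} : Multiset K) (by
    simp only [Multiset.insert_eq_cons, Multiset.map_cons, Multiset.map_singleton, ← uf_uf hF,
      hfix']
    exact Multiset.pair_comm _ _)
  have hdvd : P ∣ g.charpoly := by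
    refine dvd_of_aroots_le (K := K) P _ hP.ne_zero ?_
    rw [hPr, Multiset.le_iff_subset (by simpa using (hno x hx).symm)]
    intro y hy
    simp only [Multiset.insert_eq_cons, Multiset.mem_cons, Multiset.mem_singleton] at hy
    rcases hy with rfl | rfl
    · exact hx
    · rw [← hR]
      refine Multiset.mem_map_of_mem _ ?_
      rw [← hR]
      exact Multiset.mem_map_of_mem _ hx
  obtain ⟨Q, hQ⟩ := hdvd
  have hPd2 : P.natDegree = 2 := by simpa using hPd
  have hQm : Q.Monic := hP.of_mul_monic_left (hQ ▸ g.charpoly_monic)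
  have hQd : Q.natDegree = 2 := by
    have := congrArg natDegree hQ
    rw [LinearMap.charpoly_natDegree, h4, hP.natDegree_mul hQm] at this
    omega
  have key : ∀ (P : F[X]) (u : V), P.Monic → P.natDegree = 2 → aeval g P u = 0 →
      ∃ s t : F, g (g u) = s • g u + t • u := by
    intro P u hP hd h
    refine ⟨-P.coeff 1, -P.coeff 0, ?_⟩
    rw [aeval_eq_sum_range, hd] at h
    have hl : P.coeff 2 = 1 := by rw [← hd]; exact hP
    simp only [Finset.sum_range_succ, Finset.range_zero, Finset.sum_empty, zero_add, hl, pow_zero,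
      pow_one, one_smul, LinearMap.add_apply, LinearMap.smul_apply, Module.End.one_apply, sq,
      Module.End.mul_apply] at h
    rw [neg_smul, neg_smul, ← sub_eq_zero, ← h]; abel
  have : Nontrivial V := Module.nontrivial_of_finrank_pos (R := F) (by omega)
  obtain ⟨u, hu⟩ := exists_ne (0 : V)
  by_cases h : aeval g Q u = 0
  · exact ⟨u, hu, key Q u hQm hQd h⟩
  · refine ⟨_, h, key P _ hP hPd2 ?_⟩
    rw [← Module.End.mul_apply, ← map_mul, ← hQ, LinearMap.aeval_self_charpoly]; rfl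

/-- An invariant totally isotropic plane. -/
def TI2 {σ : F →+* F} (B : V →ₗ[F] V →ₛₗ[σ] F) (g : V →ₗ[F] V) : Prop :=
  ∃ a b, LinearIndependent F ![a, b] ∧ B a a = 0 ∧ B a b = 0 ∧ B b a = 0 ∧ B b b = 0 ∧
    g a ∈ Submodule.span F {a, b} ∧ g b ∈ Submodule.span F {a, b}

omit [Fintype F] [FiniteDimensional F V] in
theorem li_of_not_eig {g : V →ₗ[F] V} {u : V} (hu : u ≠ 0) (h : ∀ a : F, g u ≠ a • u) :
    LinearIndependent F ![u, g u] :=
  (LinearIndependent.pair_iff' hu).2 fun a e => h a e.symm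

theorem ti_of_noeig (hs : ∀ x y, B y x = frobq hF (B x y)) (hnd : ∀ x, (∀ y, B x y = 0) → x = 0)
    {g : V →ₗ[F] V} (hg : ∀ x y, B (g x) (g y) = B x y) (h4 : finrank F V = 4)
    (hr : ∀ (v : V) (a : F), v ≠ 0 → g v ≠ a • v) : TI2 B g := by
  obtain ⟨u, hu, s, t, h⟩ := four_dim_quad hF hnd hg h4 fun a ha => by
    obtain ⟨v, hv, e⟩ := eig_of_root ha
    exact hr v a hv e
  let U : Submodule F V := Submodule.span F {u, g u}
  have hU : ∀ x ∈ U, g x ∈ U ∧ g (g x) = s • g x + t • x := by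
    intro x hx
    obtain ⟨a, b, rfl⟩ := Submodule.mem_span_pair.1 hx
    refine ⟨Submodule.mem_span_pair.2 ⟨b * t, a + b * s, ?_⟩, ?_⟩
    · simp only [map_add, map_smul, h]; module
    · simp only [map_add, map_smul, h]; module
  have hU2 : finrank F U = 2 := by
    have := finrank_span_eq_card (li_of_not_eig hu fun a => hr u a hu)
    rw [Matrix.range_cons_cons_empty] at this
    simpa using this
  by_cases hnd' : ∀ x : U, (∀ y : U, B x y = 0) → x = 0
  · obtain ⟨v, a, hv, e⟩ := two_dim_eig hF (B := B.domRestrict₁₂ U U) hnd'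
      (g := g.restrict fun x hx => (hU x hx).1) (fun x y => hg _ _) hU2
    exact absurd (congrArg Subtype.val e) (hr v a (by simpa using hv))
  · push Not at hnd'
    obtain ⟨r, hr1, hr0⟩ := hnd'
    have hr0' : (r : V) ≠ 0 := by simpa using hr0
    have e1 : B r (g r) = 0 := hr1 ⟨_, (hU _ r.2).1⟩
    refine ⟨r, g r, li_of_not_eig hr0' fun a => hr _ a hr0', hr1 r, e1, by rw [hs, e1, map_zero],
      by rw [hg, hr1 r], Submodule.subset_span (by simp), ?_⟩
    rw [(hU _ r.2).2]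
    exact Submodule.mem_span_pair.2 ⟨t, s, add_comm _ _⟩

theorem two_dim_cases (hs : ∀ x y, B y x = frobq hF (B x y)) (hnd : ∀ x, (∀ y, B x y = 0) → x = 0)
    {g : V →ₗ[F] V} (hg : ∀ x y, B (g x) (g y) = B x y) (h2 : finrank F V = 2) (l : F) :
    ∃ w μ, w ≠ 0 ∧ g w = (μ : F) • w ∧ (B w w = 0 ∨ μ ≠ l) := by
  by_contra hcon
  push Not at hcon
  obtain ⟨v, a, hv, e⟩ := two_dim_eig hF hnd hg h2
  obtain ⟨hvv, rfl⟩ := hcon v a hv e
  have hk : finrank F (LinearMap.ker (B.flip v)) = 1 := by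
    have h1 := (B.flip v).finrank_range_add_finrank_ker
    have h3 : LinearMap.range (B.flip v) = ⊤ := by
      rw [LinearMap.range_eq_top]
      intro c
      exact ⟨(c / B v v) • v, by simp [div_mul_cancel₀ _ hvv]⟩
    rw [h3, finrank_top, finrank_self, h2] at h1
    omega
  obtain ⟨w, hw, hw'⟩ := finrank_eq_one_iff'.1 hk
  have hwv : B w v = 0 := w.2
  have ha : a ≠ 0 := by
    rintro rfl
    exact hv (isom_inj hnd hg (by rw [e, zero_smul]))
  obtain ⟨μ, hμ⟩ := hw' ⟨g w, by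
    have := hg w v
    rw [e, map_smulₛₗ, hwv, smul_eq_mul, mul_eq_zero] at this
    exact this.resolve_left ((_root_.map_ne_zero _).2 ha)⟩
  have hμ' : g w = μ • (w : V) := (congrArg Subtype.val hμ).symm
  obtain ⟨hww, rfl⟩ := hcon w μ (by simpa using hw) hμ'
  obtain ⟨t, ht⟩ := exists_norm_eq hF (-B v v / B w w) (by rw [map_div₀, map_neg, ← hs, ← hs])
  have hvw : B v w = 0 := by rw [hs, hwv, map_zero]
  refine (hcon (v + t • (w : V)) μ (fun h => hvv ?_) (by rw [map_add, map_smul, e, hμ']; module)).1 ?_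
  · have := congrArg (fun x => B x v) h
    simpa [hwv] using this
  · simp only [map_add, map_smul, map_smulₛₗ, LinearMap.add_apply, LinearMap.smul_apply, hwv, hvw,
      smul_eq_mul, RingHom.id_apply]
    rw [eq_div_iff hww] at ht
    linear_combination ht

theorem four_dim_cases (hs : ∀ x y, B y x = frobq hF (B x y))
    (hnd : ∀ x, (∀ y, B x y = 0) → x = 0) {g : V →ₗ[F] V} (hg : ∀ x y, B (g x) (g y) = B x y)
    (h4 : finrank F V = 4) : (∃ v, B v v ≠ 0 ∧ ∃ a : F, g v = a • v) ∨ TI2 B g := by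
  by_cases hr : ∀ (v : V) (a : F), v ≠ 0 → g v ≠ a • v
  · exact Or.inr (ti_of_noeig hF hs hnd hg h4 hr)
  push Not at hr
  obtain ⟨v, l, hv, e⟩ := hr
  by_cases hvv : B v v = 0
  swap
  · exact Or.inl ⟨v, hvv, l, e⟩
  obtain ⟨W, h, hW, hnd', hh, h1, -, hvW⟩ := iso_reduce (frobq_frobq hF) hs hnd hg hv e hvv
  obtain ⟨w, μ, hw, hμ, hc⟩ := two_dim_cases hF (B := B.domRestrict₁₂ W W) (fun x y => hs _ _) hnd'
    (g := h) hh (by omega) l
  obtain ⟨hwv, k, hk⟩ := h1 w
  have hvw : B v w = 0 := by rw [hs, hwv, map_zero]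
  rw [hμ, Submodule.coe_smul] at hk
  by_cases hww : B w w = 0
  · refine Or.inr ⟨v, w, (LinearIndependent.pair_iff' hv).2 fun a ha => ?_, hvv, hvw, hwv, hww,
      Submodule.mem_span_pair.2 ⟨l, 0, by rw [e]; simp⟩,
      Submodule.mem_span_pair.2 ⟨k, μ, by rw [hk, add_comm]⟩⟩
    have ha0 : a ≠ 0 := by
      rintro rfl
      exact hw (Subtype.ext (by simpa using ha.symm))
    apply hvW
    have := W.smul_mem a⁻¹ w.2
    rwa [← ha, smul_smul, inv_mul_cancel₀ ha0, one_smul] at this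
  · have hne : μ - l ≠ 0 := sub_ne_zero.2 (hc.resolve_left hww)
    refine Or.inl ⟨w + (k / (μ - l)) • v, by simpa [hwv, hvw, hvv] using hww, μ, ?_⟩
    rw [map_add, map_smul, hk, e, smul_add, smul_smul, smul_smul, add_assoc, ← add_smul]
    congr 2
    field_simp
    ring

theorem three_dim_cases (hs : ∀ x y, B y x = frobq hF (B x y))
    (hnd : ∀ x, (∀ y, B x y = 0) → x = 0) {g : V →ₗ[F] V} (hg : ∀ x y, B (g x) (g y) = B x y)
    (h3 : finrank F V = 3) (hno : ∀ (v : V) (a : F), g v = a • v → B v v = 0)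
    {v : V} {l : F} (hv : v ≠ 0) (e : g v = l • v) :
    (∀ u, g u = l • u → ∃ s : F, u = s • v) ∧ (g - l • 1) ^ 3 = 0 := by
  have hvv := hno v l e
  obtain ⟨W, h, hW, hnd', hh, h1, h2, -⟩ := iso_reduce (frobq_frobq hF) hs hnd hg hv e hvv
  obtain ⟨w, hw, hw'⟩ := finrank_eq_one_iff'.1 (show finrank F W = 1 by omega)
  have hww : B w w ≠ 0 := fun h0 => hw (hnd' w fun y => by
    obtain ⟨c, rfl⟩ := hw' y
    simp [h0])
  obtain ⟨hwv, k, hk⟩ := h1 w
  have hvw : B v w = 0 := by rw [hs, hwv, map_zero]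
  obtain ⟨μ, hμ⟩ := hw' (h w)
  have hn : μ * frobq hF μ = 1 := by
    have := hh w w
    rw [← hμ] at this
    simp only [Submodule.coe_smul, map_smul, map_smulₛₗ, LinearMap.smul_apply, smul_eq_mul,
      RingHom.id_apply] at this
    apply mul_right_cancel₀ hww
    linear_combination this
  rw [← hμ, Submodule.coe_smul] at hk
  have hμl : μ = l := by
    by_contra hc
    have hne : μ - l ≠ 0 := sub_ne_zero.2 hc
    apply hww
    have := hno (w + (k / (μ - l)) • v) μ (by
      rw [map_add, map_smul, hk, e, smul_add, smul_smul, smul_smul, add_assoc, ← add_smul]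
      congr 2
      field_simp
      ring)
    simpa [hwv, hvw, hvv] using this
  subst hμl
  have hperp : ∀ x, B x v = 0 → ∃ s a : F, x = s • (w : V) + a • v := by
    intro x hx
    obtain ⟨w', a, rfl⟩ := h2 x hx
    obtain ⟨c, rfl⟩ := hw' w'
    exact ⟨c, a, rfl⟩
  refine ⟨fun u hu => ?_, ?_⟩
  · have huv : B u v = 0 := by
      by_contra h0
      obtain ⟨x, hx, hx'⟩ := exists_herm_self_ne_zero (exists_frobq_ne hF) h0
      obtain ⟨a, b, rfl⟩ := Submodule.mem_span_pair.1 hx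
      exact hx' (hno _ μ (by rw [map_add, map_smul, map_smul, hu, e]; module))
    obtain ⟨s, a, rfl⟩ := hperp u huv
    have := hno _ _ hu
    simp [hwv, hvw, hvv, hww] at this
    exact ⟨a, by simp [this]⟩
  · ext y
    have e1 : B ((g - μ • 1 : V →ₗ[F] V) y) v = 0 := by
      have := hg y v
      rw [e, map_smulₛₗ, smul_eq_mul] at this
      simp only [LinearMap.sub_apply, LinearMap.smul_apply, Module.End.one_apply, map_sub,
        map_smul, smul_eq_mul]
      rw [← this]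
      linear_combination -(B (g y) v) * hn
    obtain ⟨s, a, hsa⟩ := hperp _ e1
    rw [pow_succ, Module.End.mul_apply, hsa, sq, Module.End.mul_apply]
    simp [hk, e]
    module

end Fin

end Cfsg.Agent.Cov
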