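import Cfsg.Agent.Cov.Herm
import Cfsg.Agent.Cov.AS

/-! Normal 2-coverings of `PSU₄(q)` and `PSU₃(3 ^ a)`. -/

set_option autoImplicit false

namespace Cfsg.Agent.Cov

open Polynomial Module Matrix Cfsg.Agent.Forms Cfsg.Agent.HForm

variable {F : Type*} [Field F] [Fintype F] {q n : ℕ} (hF : Fintype.card F = q ^ 2)

omit [Fintype F] in
theorem isAct_su : IsAct (fun (g : SU n F q) v => sulin g v) :=
  ⟨fun x => by rw [sulin_one]; rfl, sulin_mul_apply⟩

omit [Fintype F] in
theorem sulin_eq (g : SU n F q) (v : Fin n → F) :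
    sulin g v = (g.1 : Matrix (Fin n) (Fin n) F) *ᵥ v := sllin_apply _ _

include hF in
theorem su_center_smul (hn : 3 ≤ n) {z : SU n F q} (hz : z ∈ Subgroup.center (SU n F q)) :
    ∃ c : F, ∀ v, sulin z v = c • v := by
  obtain ⟨c, hc⟩ := (su_mem_center_iff hF hn z).1 hz
  exact ⟨c, fun v => by rw [sulin_eq, hc, smul_mulVec, one_mulVec]⟩

theorem herm_hs (x y : Fin n → F) :
    hermB (frobq hF) (Fin n) y x = frobq hF (hermB (frobq hF) (Fin n) x y) :=
  hermB_symm (frobq_frobq hF) x y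

theorem herm_hnd (x : Fin n → F) (h : ∀ y, hermB (frobq hF) (Fin n) x y = 0) : x = 0 :=
  (hermB_rep (frobq_frobq hF)).sepLeft h

theorem su_point {u v : Fin n → F} (hu : hermB (frobq hF) (Fin n) u u = 1)
    (hv : hermB (frobq hF) (Fin n) v v ≠ 0) :
    ∃ (y : SU n F q) (t : F), t ≠ 0 ∧ sulin y u = t • v := by
  set B := hermB (frobq hF) (Fin n) with hB
  obtain ⟨d, hd⟩ := exists_norm_eq hF (B v v) (herm_hs hF v v).symm
  have hd0 : d ≠ 0 := by rintro rfl; exact hv (by rw [← hd, zero_mul])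
  have hd1 : frobq hF d ≠ 0 := (_root_.map_ne_zero _).2 hd0
  have hv0 : v ≠ 0 := by rintro rfl; simp at hv
  have hu0 : u ≠ 0 := by rintro rfl; simp at hu
  obtain ⟨f, hf, hfu⟩ := witt_herm_family (hermB_rep (frobq_frobq hF)) (frobq_frobq hF)
    (exists_frobq_ne hF) (herm_hs hF) ![u] ![d⁻¹ • v] (by simpa using hu0)
    (by simp [hd0, hv0]) (fun i j => by
      fin_cases i; fin_cases j
      simp only [Fin.zero_eta, cons_val_fin_one, map_smul, map_smulₛₗ, LinearMap.smul_apply,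
        smul_eq_mul, RingHom.id_apply, ← hB, hu, ← hd, map_inv₀]
      field_simp)
  have hδ := det_mul_conj_det hf
  have hδ0 : LinearMap.det f ≠ 0 := left_ne_zero_of_mul_eq_one hδ
  have hδ1 : frobq hF (LinearMap.det f) ≠ 0 := right_ne_zero_of_mul_eq_one hδ
  obtain ⟨y, hy⟩ := exists_sulin_eq hF (f := f ∘ₗ qrefl B u ((LinearMap.det f)⁻¹ - 1))
    (by rw [LinearMap.det_comp, det_qrefl', hu]; field_simp; ring) (fun x y => by
      rw [LinearMap.comp_apply, LinearMap.comp_apply, hf]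
      refine qrefl_isometry (ε := 1) (by simpa using herm_hs hF) ?_ x y
      rw [hu, map_sub, map_inv₀, map_one]
      field_simp
      linear_combination -hδ)
  refine ⟨y, (LinearMap.det f)⁻¹ * d⁻¹, mul_ne_zero (inv_ne_zero hδ0) (inv_ne_zero hd0), ?_⟩
  have := hfu 0
  simp only [cons_val_fin_one] at this
  rw [hy, LinearMap.comp_apply, qrefl_apply, hu, map_add, map_smul, this]
  module

theorem su_plane {a b a' b' : Fin n → F} (h : LinearIndependent F ![a, b])
    (h' : LinearIndependent F ![a', b']) (h1 : hermB (frobq hF) (Fin n) a a = 0)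
    (h2 : hermB (frobq hF) (Fin n) a b = 0) (h3 : hermB (frobq hF) (Fin n) b a = 0)
    (h4 : hermB (frobq hF) (Fin n) b b = 0) (h1' : hermB (frobq hF) (Fin n) a' a' = 0)
    (h2' : hermB (frobq hF) (Fin n) a' b' = 0) (h3' : hermB (frobq hF) (Fin n) b' a' = 0)
    (h4' : hermB (frobq hF) (Fin n) b' b' = 0) :
    ∃ (y : SU n F q) (t c : F), t ≠ 0 ∧ sulin y a = t • a' ∧ sulin y b = b' + c • a' := by
  obtain ⟨f, hf, hfu⟩ := witt_herm_family (hermB_rep (frobq_frobq hF)) (frobq_frobq hF)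
    (exists_frobq_ne hF) (herm_hs hF) _ _ h h' (fun i j => by
      fin_cases i <;> fin_cases j <;> simp [h1, h2, h3, h4, h1', h2', h3', h4'])
  have hδ := det_mul_conj_det hf
  have hδ0 : LinearMap.det f ≠ 0 := left_ne_zero_of_mul_eq_one hδ
  have ha : a ≠ 0 := h.ne_zero 0
  obtain ⟨k, hk, hd, hk'⟩ := exists_iso_det (frobq_frobq hF) (exists_frobq_ne hF) (herm_hs hF)
    (herm_hnd hF) ha h1 (δ := (LinearMap.det f)⁻¹) (by rw [map_inv₀, ← mul_inv, hδ, inv_one])
  obtain ⟨y, hy⟩ := exists_sulin_eq hF (f := f ∘ₗ k)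
    (by rw [LinearMap.det_comp, hd, mul_inv_cancel₀ hδ0]) (fun x y => by
      rw [LinearMap.comp_apply, LinearMap.comp_apply, hf, hk])
  obtain ⟨c, hc⟩ := hk' a h1
  obtain ⟨c', hc'⟩ := hk' b h3
  have e0 : f a = a' := hfu 0
  have e1 : f b = b' := hfu 1
  have e : sulin y a = (1 + c) • a' := by
    rw [hy, LinearMap.comp_apply, hc, map_add, map_smul, e0, add_smul, one_smul]
  refine ⟨y, 1 + c, c', fun h0 => ha (sulin_inj y (by rw [e, h0, zero_smul, map_zero])), e, ?_⟩
  rw [hy, LinearMap.comp_apply, hc', map_add, map_smul, e0, e1]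

include hF in
theorem su_point_proper (hn : 2 ≤ n) : ∃ g : SU n F q,
    ∃ x ∈ {v : Fin n → F | ∃ c : F, v = c • Pi.single ⟨0, by omega⟩ 1},
      sulin g x ∉ {v : Fin n → F | ∃ c : F, v = c • Pi.single ⟨0, by omega⟩ 1} := by
  obtain ⟨y, t, ht, hy⟩ := su_point hF (n := n) (u := Pi.single ⟨0, by omega⟩ 1)
    (v := Pi.single ⟨1, by omega⟩ 1) (by simp [hermB_apply, Pi.single_apply])
    (by simp [hermB_apply, Pi.single_apply])
  refine ⟨y, _, ⟨1, (one_smul _ _).symm⟩, ?_⟩
  rintro ⟨c, hc⟩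
  rw [hy] at hc
  have := congrFun hc ⟨1, by omega⟩
  simp [Pi.single_apply, Fin.ext_iff, ht] at this

theorem su_point_pres (hn : 2 ≤ n) {g : SU n F q} {v : Fin n → F} {a : F}
    (hv : hermB (frobq hF) (Fin n) v v ≠ 0) (e : sulin g v = a • v) :
    Pres (fun (g : SU n F q) v => sulin g v)
      {v : Fin n → F | ∃ c : F, v = c • Pi.single ⟨0, by omega⟩ 1} g := by
  obtain ⟨y, t, -, hy⟩ := su_point hF (n := n) (u := Pi.single ⟨0, by omega⟩ 1)
    (by simp [hermB_apply, Pi.single_apply]) hv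
  refine ⟨y, ?_⟩
  rintro _ ⟨c, rfl⟩
  refine ⟨_, ⟨a * c, rfl⟩, ?_⟩
  simp only [map_smul, hy, e]
  module

include hF in
theorem cov_psu4 : Cov2 (PSU 4 F q) := by
  obtain ⟨ω, hω⟩ := exists_norm_eq hF (-1) (by simp)
  have hω0 : ω ≠ 0 := by rintro rfl; simp at hω
  let a : Fin 4 → F := ![1, ω, 0, 0]
  let b : Fin 4 → F := ![0, 0, 1, ω]
  have hab : LinearIndependent F ![a, b] := LinearIndependent.pair_iff.2 fun s t h =>
    ⟨by simpa [a, b] using congrFun h 0, by simpa [a, b] using congrFun h 2⟩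
  have h1 : hermB (frobq hF) (Fin 4) a a = 0 := by simp [hermB_apply, a, Fin.sum_univ_four, hω]
  have h2 : hermB (frobq hF) (Fin 4) a b = 0 := by simp [hermB_apply, a, b, Fin.sum_univ_four]
  have h3 : hermB (frobq hF) (Fin 4) b a = 0 := by simp [hermB_apply, a, b, Fin.sum_univ_four]
  have h4 : hermB (frobq hF) (Fin 4) b b = 0 := by simp [hermB_apply, b, Fin.sum_univ_four, hω]
  refine cov_quot isAct_su isAct_su _ (Submodule.span F {a, b} : Submodule F (Fin 4 → F))
    (su_point_proper hF (by norm_num)) ?_ ?_ ?_ ?_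
  · obtain ⟨y, t, c, ht, hy, -⟩ := su_plane hF (a' := ![1, 0, ω, 0]) (b' := ![0, 1, 0, ω]) hab
      (LinearIndependent.pair_iff.2 fun s t h =>
        ⟨by simpa using congrFun h 0, by simpa using congrFun h 1⟩) h1 h2 h3 h4
      (by simp [hermB_apply, Fin.sum_univ_four, hω]) (by simp [hermB_apply, Fin.sum_univ_four])
      (by simp [hermB_apply, Fin.sum_univ_four]) (by simp [hermB_apply, Fin.sum_univ_four, hω])
    refine ⟨y, a, Submodule.subset_span (by simp), fun h => ?_⟩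
    obtain ⟨r, s, hrs⟩ := Submodule.mem_span_pair.1 h
    rw [hy] at hrs
    have e0 := congrFun hrs 0
    have e1 := congrFun hrs 1
    simp [a, b, hω0] at e0 e1
    exact ht (e0 ▸ e1)
  · rintro z hz v ⟨c, rfl⟩
    obtain ⟨a, ha⟩ := su_center_smul hF (by norm_num) hz
    exact ⟨a * c, by rw [ha, smul_smul]⟩
  · intro z hz v hv
    obtain ⟨a, ha⟩ := su_center_smul hF (by norm_num) hz
    rw [ha]
    exact Submodule.smul_mem _ _ hv
  · intro g
    rcases four_dim_cases hF (herm_hs hF) (herm_hnd hF) (sulin_form hF g) (by simp) with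
      ⟨v, hv, l, e⟩ | ⟨a', b', h, h1', h2', h3', h4', ha, hb⟩
    · exact Or.inl (su_point_pres hF (by norm_num) hv e)
    · obtain ⟨y, t, c, ht, hy, hy'⟩ := su_plane hF hab h h1 h2 h3 h4 h1' h2' h3' h4'
      refine Or.inr ⟨y, fun v hv => ?_⟩
      obtain ⟨r, s, rfl⟩ := Submodule.mem_span_pair.1 hv
      have : sulin g (sulin y (r • a + s • b)) ∈ Submodule.span F {a', b'} := by
        simp only [map_add, map_smul, hy, hy']
        exact add_mem (Submodule.smul_mem _ _ (Submodule.smul_mem _ _ ha))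
          (Submodule.smul_mem _ _ (add_mem hb (Submodule.smul_mem _ _ ha)))
      obtain ⟨r', s', h'⟩ := Submodule.mem_span_pair.1 this
      refine ⟨_, Submodule.mem_span_pair.2 ⟨(r' - s' * c) / t, s', rfl⟩, ?_⟩
      beta_reduce
      rw [← h', map_add, map_smul, map_smul, hy, hy', smul_smul, div_mul_cancel₀ _ ht]
      module

section Three
variable [CharP F 3]

theorem su3_of_isU {u : Matrix (Fin 3) (Fin 3) F} (hu : IsU (frobq hF) u) :
    ∃ (y : SU 3 F q) (t : F), (y.1 : Matrix (Fin 3) (Fin 3) F) = t • u := by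
  obtain ⟨t, ht⟩ := exists_cube (u.det)⁻¹
  have hn : t * frobq hF t = 1 := cube_inj (by
    rw [mul_pow, ← map_pow, ht, map_inv₀, ← mul_inv, hu.det]; simp)
  refine ⟨⟨⟨t • u, by rw [det_smul, Fintype.card_fin, ht, inv_mul_cancel₀ hu.det_ne]⟩,
    (HForm.mem_SU_iff 3 (frobq_apply hF) _).2 ?_⟩, t, rfl⟩
  change (t • u)ᵀ * (t • u).map (frobq hF) = 1
  have : (t • u).map (frobq hF) = frobq hF t • u.map (frobq hF) := by
    ext i j; simp
  rw [this, transpose_smul, smul_mul_smul_comm, hn, hu, one_smul]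

omit [CharP F 3] in
theorem isU_conj_selfadj {c : F} (hc : ∀ t, t ^ 3 - t ≠ c) {θ₀ θ : Matrix (Fin 3) (Fin 3) F}
    (h₀ : θ₀ ^ 3 = θ₀ + c • 1) (h : θ ^ 3 = θ + c • 1) (s₀ : (θ₀.map (frobq hF))ᵀ = θ₀)
    (s : (θ.map (frobq hF))ᵀ = θ) : ∃ u, IsU (frobq hF) u ∧ u * θ₀ = θ * u := by
  let _ := tauStar (frobq_frobq hF)
  obtain ⟨ε, hε⟩ := exists_frobq_ne hF
  obtain ⟨x, hx⟩ := isConj_of_irr (asP_irr hc) (asP_monic c) ((aeval_asP _ _).2 h₀)
    ((aeval_asP _ _).2 h)
  have hst : ∀ A : Matrix (Fin 3) (Fin 3) F, star A = (A.map (frobq hF))ᵀ := fun A => rfl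
  rw [← hst] at s s₀
  have hx1 : (x : Matrix (Fin 3) (Fin 3) F) * θ₀ = θ * x := hx.eq
  have hx2 := congrArg star hx1
  rw [star_mul, star_mul, s, s₀] at hx2
  have hsc : ∀ (a : F) (m : Matrix (Fin 3) (Fin 3) F), Commute m (a • 1) :=
    fun a m => (Commute.one_right m).smul_right a
  obtain ⟨z, hz, e⟩ := exists_star_mul_self (Subring.centralizer {θ₀})
    (a := star (x : Matrix (Fin 3) (Fin 3) F) * x) (e := 1) (s := ε • 1)
    (fun m hm => by
      rw [Set.mem_singleton_iff.1 hm, Matrix.mul_assoc, hx1, ← Matrix.mul_assoc, hx2,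
        Matrix.mul_assoc])
    (one_mem _) (fun m _ => (hsc ε m).eq) (fun m _ => by rw [star_smul, star_one]; exact (hsc _ m).eq)
    (by rw [star_mul, star_star]) (star_one _) (one_mul _) (Commute.one_right _) (hsc _ _)
    (Commute.one_left _) (by rw [star_smul, star_one]; exact hsc _ _) (by simp)
    (x.isUnit.star.mul x.isUnit) (by
      rw [star_smul, star_one, ← sub_smul, sub_self, add_zero, mul_one]
      refine IsUnit.pow 2 ?_
      rw [← Algebra.algebraMap_eq_smul_one]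
      exact (IsUnit.mk0 _ (sub_ne_zero.2 hε.symm)).map _)
  obtain ⟨w, rfl⟩ := isUnit_of_star_mul_self (z := z) (e ▸ x.isUnit.star.mul x.isUnit)
  refine ⟨x * (w⁻¹ : (Matrix (Fin 3) (Fin 3) F)ˣ), (isU_iff (frobq_frobq hF) _).2 ?_, ?_⟩
  · rw [← hst, star_mul, Matrix.mul_assoc,
      ← Matrix.mul_assoc (star (x : Matrix (Fin 3) (Fin 3) F)), ← e, Matrix.mul_assoc,
      Units.mul_inv, Matrix.mul_one, ← star_mul, Units.mul_inv, star_one]
  · have h1 : θ₀ * w = w * θ₀ := hz θ₀ rfl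
    have h2 : ((w⁻¹ : (Matrix (Fin 3) (Fin 3) F)ˣ) : Matrix (Fin 3) (Fin 3) F) * θ₀ =
        θ₀ * (w⁻¹ : (Matrix (Fin 3) (Fin 3) F)ˣ) :=
      ((Commute.units_inv_right h1).symm).eq
    rw [Matrix.mul_assoc, h2, ← Matrix.mul_assoc, hx1, Matrix.mul_assoc]

theorem su3_irr {c : F} (hc0 : frobq hF c = c) (hc : ∀ t, t ^ 3 - t ≠ c)
    {g : Matrix (Fin 3) (Fin 3) F} (hg : IsU (frobq hF) g) (hr : ∀ a, ¬ g.charpoly.IsRoot a) :
    ∃ θ : Matrix (Fin 3) (Fin 3) F, θ ^ 3 = θ + c • 1 ∧ (θ.map (frobq hF))ᵀ = θ ∧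
      g * θ = θ * g := by
  let _ := tauStar (frobq_frobq hF)
  have hst : ∀ A : Matrix (Fin 3) (Fin 3) F, star A = (A.map (frobq hF))ᵀ := fun A => rfl
  obtain ⟨r, hr'⟩ := exists_aeval_root g.charpoly_monic (asP_irr hc) (fun P hP hPd => by
    obtain ⟨h1, h2, h3⟩ := natDegree_of_rootless g.charpoly_monic.ne_zero hr hP hPd
    rw [charpoly_natDegree_eq_dim, Fintype.card_fin] at h2 h3
    rw [asP_natDegree, show P.natDegree = 3 by omega]) (aeval_self_charpoly g)
  rw [aeval_asP] at hr'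
  set θ := aeval g r with hθ
  have hg1 : star g * g = 1 := (isU_iff (frobq_frobq hF) g).1 hg
  have hg2 : g * star g = 1 := mul_eq_one_comm.1 hg1
  have c1 : Commute g θ := commute_aeval (Commute.refl g) r
  have c2 : Commute g (star θ) := by
    have := congrArg star c1.eq
    rw [star_mul, star_mul] at this
    calc g * star θ = g * star θ * (star g * g) := by rw [hg1, mul_one]
      _ = g * (star θ * star g) * g := by simp only [mul_assoc]
      _ = star θ * g := by rw [this, ← mul_assoc, hg2, one_mul]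
  have c3 : Commute (star θ) θ := commute_aeval c2.symm r
  have h2 := congrArg star hr'
  rw [star_pow, star_add, star_smul, star_one] at h2
  change _ = _ + frobq hF c • _ at h2
  refine ⟨-(θ + star θ), ?_, ?_, (c1.add_right c2).neg_right.eq⟩
  · rw [Odd.neg_pow (by decide), mat_cube_add c3.symm, hr', h2, hc0]
    have : (c • 1 + c • 1 + c • 1 : Matrix (Fin 3) (Fin 3) F) = 0 := by
      rw [← add_smul, ← add_smul, show c + c + c = 0 by linear_combination c * three_eq_zero' F,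
        zero_smul]
    rw [← sub_eq_zero, ← neg_eq_zero, ← this]; abel
  · rw [← hst, star_neg, star_add, star_star, add_comm]

theorem su3_ru {g : SU 3 F q}
    (hno : ∀ (v : Fin 3 → F) (a : F), sulin g v = a • v → hermB (frobq hF) (Fin 3) v v = 0)
    {l : F} (hl : (g.1 : Matrix (Fin 3) (Fin 3) F).charpoly.IsRoot l) :
    Thm.RU (g.1 : Matrix (Fin 3) (Fin 3) F) := by
  have key := fun {v : Fin 3 → F} {l : F} =>
    three_dim_cases hF (herm_hs hF) (herm_hnd hF) (sulin_form hF g) (by simp) hno (v := v) (l := l)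
  refine ⟨fun c => ?_, ?_⟩
  · by_cases h : ∃ v, v ≠ 0 ∧ sulin g v = c • v
    · obtain ⟨v, hv, e⟩ := h
      exact ⟨v, (key hv e).1⟩
    · push Not at h
      refine ⟨0, fun u hu => ⟨0, ?_⟩⟩
      by_contra h0
      exact h u (by simpa using h0) hu
  · obtain ⟨v, hv, e⟩ := exists_eigvec hl
    have h1 := (key hv ((sulin_eq g v).trans e)).2
    have h2 : IsNilpotent ((g.1 : Matrix (Fin 3) (Fin 3) F) - algebraMap F _ l) := by
      refine ⟨3, Matrix.toLin'.injective ?_⟩
      rw [toLin'_pow, map_zero, ← h1, map_sub, Algebra.algebraMap_eq_smul_one, map_smul,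
        toLin'_one]
      rfl
    have h3 := GLn.det_of_isNilpotent_sub h2
    rw [g.1.2, Fintype.card_fin] at h3
    have h4 : l = 1 := cube_inj (by rw [← h3, one_pow])
    rw [GLn.charpoly_of_isNilpotent_sub h2, h4, Fintype.card_fin]

include hF in
theorem cov_psu3 : Cov2 (PSU 3 F q) := by
  have h3 := three_eq_zero' F
  obtain ⟨c, hc0, hc⟩ := exists_as_const (frobq hF) (frobq_frobq hF)
  obtain ⟨b, hb⟩ := exists_cube (-c)
  have hb0 : frobq hF b = b := cube_inj (by rw [← map_pow, hb, map_neg, hc0])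
  have hb1 : b ≠ 0 := by
    rintro rfl
    exact hc 0 (by linear_combination -hb)
  let θ₀ : Matrix (Fin 3) (Fin 3) F := !![0, b, b; b, 1, b; b, b, -1]
  let u₀ : Matrix (Fin 3) (Fin 3) F := !![0, 0, 1; 1, 0, 0; 0, 1, 0]
  have hθ : θ₀ ^ 3 = θ₀ + c • 1 := by
    have e : c = -b ^ 3 := by rw [hb, neg_neg]
    rw [e]
    ext i j
    fin_cases i <;> fin_cases j <;> simp [θ₀, pow_succ, Matrix.mul_apply, Fin.sum_univ_three]
    · linear_combination (b ^ 3) * h3
    · linear_combination (b ^ 3) * h3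
    · linear_combination (b ^ 3) * h3
    · linear_combination (b ^ 3) * h3
    · linear_combination (b ^ 3 + b ^ 2) * h3
    · linear_combination (b ^ 3) * h3
    · linear_combination (b ^ 3) * h3
    · linear_combination (b ^ 3) * h3
    · linear_combination (b ^ 3 - b ^ 2) * h3
  have hθ' : (θ₀.map (frobq hF))ᵀ = θ₀ := by
    ext i j
    fin_cases i <;> fin_cases j <;> simp [θ₀, hb0]
  have hu : IsU (frobq hF) u₀ := by
    unfold IsU
    ext i j
    fin_cases i <;> fin_cases j <;> simp [u₀, Matrix.mul_apply, Fin.sum_univ_three]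
  have huθ : u₀ * θ₀ = θ₀ * u₀ + (-1 : F) • u₀ := by
    ext i j
    fin_cases i <;> fin_cases j <;> simp [u₀, θ₀, Matrix.mul_apply, Fin.sum_univ_three]
    linear_combination h3
  have hru : Thm.RU u₀ := by
    refine ⟨fun c => ⟨![1, 1, 1], fun u hu => ?_⟩, ?_⟩
    · have e0 := congrFun hu 0
      have e1 := congrFun hu 1
      have e2 := congrFun hu 2
      simp [u₀, mulVec, dotProduct, Fin.sum_univ_three] at e0 e1 e2
      by_cases h0 : u 0 = 0
      · refine ⟨0, ?_⟩
        have e3 : u 2 = 0 := by rw [e0, h0, mul_zero]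
        have e4 : u 1 = 0 := by rw [e2, e3, mul_zero]
        ext i; fin_cases i <;> simp [h0, e3, e4]
      · have hc1 : c = 1 := cube_inj (mul_right_cancel₀ h0 (by
          linear_combination -e1 - c * e2 - c ^ 2 * e0))
        subst hc1
        refine ⟨u 0, ?_⟩
        rw [one_mul] at e0 e1
        ext i; fin_cases i <;> simp [e0, ← e1]
    · have h2 : IsNilpotent (u₀ - algebraMap F _ 1) := by
        refine ⟨3, ?_⟩
        rw [map_one]
        ext i j
        fin_cases i <;> fin_cases j <;> simp [u₀, pow_succ, Matrix.mul_apply, Fin.sum_univ_three]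
        all_goals first | linear_combination h3 | linear_combination -h3
      rw [GLn.charpoly_of_isNilpotent_sub h2, Fintype.card_fin]
  have hact : IsAct fun (g : SU 3 F q) v => (g.1 : Matrix (Fin 3) (Fin 3) F) *ᵥ v :=
    ⟨fun x => (sulin_eq 1 x).symm.trans (isAct_su.one x), fun g h x => by
      rw [← sulin_eq, ← sulin_eq, ← sulin_eq]; exact isAct_su.mul g h x⟩
  refine cov_quot isAct_su hact.prod _ (graphs θ₀) (su_point_proper hF (by norm_num)) ?_ ?_ ?_ ?_
  · refine ⟨⟨⟨!![1, 0, 0; 0, -1, 0; 0, 0, -1], by simp [det_fin_three]⟩,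
      (HForm.mem_SU_iff 3 (frobq_apply hF) _).2 ?_⟩, (![1, 0, 0], θ₀ *ᵥ ![1, 0, 0]),
      ⟨0, by simp, by simp⟩, ?_⟩
    · ext i j
      fin_cases i <;> fin_cases j <;> simp [Matrix.mul_apply, Fin.sum_univ_three]
    · rintro ⟨k, -, hk⟩
      have := congrFun hk 1
      simp [θ₀, mulVec, dotProduct, Fin.sum_univ_three] at this
      exact hb1 (by linear_combination this + b * h3)
  · rintro z hz v ⟨c, rfl⟩
    obtain ⟨a, ha⟩ := su_center_smul hF (by norm_num) hz
    exact ⟨a * c, by rw [ha, smul_smul]⟩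
  · intro z hz v hv
    obtain ⟨a, ha⟩ := su_center_smul hF (by norm_num) hz
    simp only [← sulin_eq, ha]
    exact graphs_smul θ₀ a hv
  · intro g
    have hg : IsU (frobq hF) (g.1 : Matrix (Fin 3) (Fin 3) F) :=
      (HForm.mem_SU_iff 3 (frobq_apply hF) _).1 g.2
    by_cases hno : ∀ (v : Fin 3 → F) (a : F), sulin g v = a • v → hermB (frobq hF) (Fin 3) v v = 0
    swap
    · push Not at hno
      obtain ⟨v, a, e, hv⟩ := hno
      exact Or.inl (su_point_pres hF (by norm_num) hv e)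
    right
    by_cases hr : ∀ a, ¬ (g.1 : Matrix (Fin 3) (Fin 3) F).charpoly.IsRoot a
    · obtain ⟨θ, h1, h2, h4⟩ := su3_irr hF hc0 hc hg hr
      obtain ⟨u, hu, e⟩ := isU_conj_selfadj hF hc hθ h1 hθ' h2
      obtain ⟨y, t, hy⟩ := su3_of_isU hF hu
      exact pres_graphs hact (y := y) (θ := θ) (j := 0)
        (by rw [hy, smul_mul_assoc, e, mul_smul_comm]) (by simp) (by rw [h4]; simp)
    · push Not at hr
      obtain ⟨l, hl⟩ := hr
      obtain ⟨u, hu', e⟩ := exists_isU_conj (frobq_frobq hF) (exists_frobq_ne hF) hu hg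
        (hru.isConj (su3_ru hF hno hl))
      obtain ⟨y, t, hy⟩ := su3_of_isU hF hu'
      have e' : (y.1 : Matrix (Fin 3) (Fin 3) F) * u₀ = g.1 * y.1 := by
        rw [hy, smul_mul_assoc, e, mul_smul_comm]
      have hy1 : (y.1 : Matrix (Fin 3) (Fin 3) F) * (y⁻¹).1 = 1 :=
        congrArg (fun z : SU 3 F q => (z.1 : Matrix (Fin 3) (Fin 3) F)) (mul_inv_cancel y)
      have hy2 : ((y⁻¹).1 : Matrix (Fin 3) (Fin 3) F) * y.1 = 1 := mul_eq_one_comm.1 hy1
      refine pres_graphs hact (y := y) (θ := y.1 * θ₀ * (y⁻¹).1) (j := -1)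
        (by rw [Matrix.mul_assoc, Matrix.mul_assoc, hy2, Matrix.mul_one]) (by ring) ?_
      have e2 : (g.1 : Matrix (Fin 3) (Fin 3) F) = y.1 * u₀ * (y⁻¹).1 := by
        rw [e', Matrix.mul_assoc, hy1, Matrix.mul_one]
      rw [e2]
      generalize (y.1 : Matrix (Fin 3) (Fin 3) F) = Y at *
      generalize ((y⁻¹).1 : Matrix (Fin 3) (Fin 3) F) = Z at *
      calc Y * u₀ * Z * (Y * θ₀ * Z) = Y * (u₀ * (Z * Y) * θ₀) * Z := by simp only [Matrix.mul_assoc]
        _ = Y * (θ₀ * (Z * Y) * u₀ + (-1 : F) • u₀) * Z := by rw [hy2, mul_one, mul_one, huθ]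
        _ = _ := by simp only [Matrix.mul_assoc, mul_add, add_mul, mul_smul_comm, smul_mul_assoc]

end Three

end Cfsg.Agent.Cov
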