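import Cfsg.Agent.Cov.Alt
import Cfsg.Agent.Cov.SpEven

/-! The normal 2-covering of `PSp₆(3 ^ a)`. -/

set_option autoImplicit false

namespace Cfsg.Agent.Cov

open Polynomial Module Matrix Cfsg.Agent.Forms

theorem jacobson_three {R : Type*} [Ring R] (h3 : (3 : R) = 0) {θ y z : R}
    (h1 : θ * y = y * θ + z) (h2 : θ * z = z * θ + y) (h4 : z * y = y * z) :
    (θ + y) ^ 3 = θ ^ 3 + y ^ 3 + y := by
  have h1' : ∀ x, θ * (y * x) = y * (θ * x) + z * x := fun x => by
    rw [← mul_assoc, h1, add_mul, mul_assoc]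
  have h2' : ∀ x, θ * (z * x) = z * (θ * x) + y * x := fun x => by
    rw [← mul_assoc, h2, add_mul, mul_assoc]
  have : (θ + y) ^ 3 = θ ^ 3 + y ^ 3 + y +
      3 * (y * (θ * θ) + z * θ + y * (y * θ) + y * z) := by
    simp only [pow_succ, pow_zero, one_mul, add_mul, mul_add, mul_assoc, h1, h1', h2, h2', h4]
    noncomm_ring
  rw [this, h3, zero_mul, add_zero]

variable {F : Type*} [Field F]

theorem exists_shift {ι : Type*} [Fintype ι] [DecidableEq ι] {g : Matrix ι ι F}
    (h : ∀ y, Commute g y → y.trace = 0) : ∃ θ, g * θ = θ * g + g := by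
  by_contra hcon
  let L : Matrix ι ι F →ₗ[F] Matrix ι ι F := LinearMap.mulLeft F g - LinearMap.mulRight F g
  have hg : g ∉ LinearMap.range L := by
    rintro ⟨θ, hθ⟩
    exact hcon ⟨θ, by rw [← sub_eq_iff_eq_add']; exact hθ⟩
  obtain ⟨ψ, h1, h2⟩ := (LinearMap.range L).exists_dual_map_eq_bot_of_notMem hg inferInstance
  let w : Matrix ι ι F := Matrix.of fun i j => ψ (single j i 1)
  have hw : ∀ A, ψ A = (A * w).trace := by
    intro A
    conv_lhs => rw [matrix_eq_sum_single A]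
    simp only [map_sum, trace, diag, mul_apply, w, of_apply]
    refine Finset.sum_congr rfl fun i _ => Finset.sum_congr rfl fun j _ => ?_
    rw [← smul_eq_mul, ← map_smul, smul_single, smul_eq_mul, mul_one]
  have h3 : ∀ θ, (θ * (w * g - g * w)).trace = 0 := by
    intro θ
    have : ψ (L θ) = 0 := by
      have : ψ (L θ) ∈ (LinearMap.range L).map ψ := ⟨_, ⟨θ, rfl⟩, rfl⟩
      rwa [h2] at this
    rw [hw] at this
    simp only [L, LinearMap.sub_apply, LinearMap.mulLeft_apply, LinearMap.mulRight_apply, sub_mul,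
      trace_sub] at this
    rw [mul_sub, trace_sub, ← this, ← Matrix.mul_assoc, trace_mul_comm, Matrix.mul_assoc,
      Matrix.mul_assoc]
  have h4 : w * g = g * w := by
    rw [← sub_eq_zero]
    ext i j
    simpa [trace_single_mul] using h3 (single j i 1)
  exact h1 (by rw [hw]; exact h _ ((Commute.refl g).mul_right h4.symm))

section Sp
variable {m : ℕ}

/-- Self-adjoint matrices. -/
def SAm (y : Matrix (Fin m ⊕ Fin m) (Fin m ⊕ Fin m) F) : Prop := SA (sympB m F) (toLinAlgEquiv' y)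

theorem toLinAlg_apply (y : Matrix (Fin m ⊕ Fin m) (Fin m ⊕ Fin m) F) (v : Fin m ⊕ Fin m → F) :
    toLinAlgEquiv' y v = y *ᵥ v := toLinAlgEquiv'_apply _ _

theorem sam_iff {y : Matrix (Fin m ⊕ Fin m) (Fin m ⊕ Fin m) F} :
    SAm y ↔ ∀ u v, sympB m F (y *ᵥ u) v = sympB m F u (y *ᵥ v) := by
  simp only [SAm, SA, toLinAlg_apply]

theorem SAm.add {y z : Matrix (Fin m ⊕ Fin m) (Fin m ⊕ Fin m) F} (hy : SAm y) (hz : SAm z) :
    SAm (y + z) := by unfold SAm; rw [map_add]; exact SA.add hy hz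

theorem SAm.sub {y z : Matrix (Fin m ⊕ Fin m) (Fin m ⊕ Fin m) F} (hy : SAm y) (hz : SAm z) :
    SAm (y - z) := by unfold SAm; rw [map_sub]; exact SA.sub hy hz

theorem SAm.neg {y : Matrix (Fin m ⊕ Fin m) (Fin m ⊕ Fin m) F} (hy : SAm y) :
    SAm (-y) := by unfold SAm; rw [map_neg]; exact SA.neg hy

theorem SAm.smul {y : Matrix (Fin m ⊕ Fin m) (Fin m ⊕ Fin m) F} (hy : SAm y) (a : F) :
    SAm (a • y) := by unfold SAm; rw [map_smul]; exact SA.smul hy a

theorem SAm.pow {y : Matrix (Fin m ⊕ Fin m) (Fin m ⊕ Fin m) F} (hy : SAm y) (n : ℕ) :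
    SAm (y ^ n) := by unfold SAm; rw [map_pow]; exact SA.pow hy n

theorem SAm.one : SAm (1 : Matrix (Fin m ⊕ Fin m) (Fin m ⊕ Fin m) F) := by
  unfold SAm; rw [map_one]; exact SA.one

theorem SAm.aeval {y : Matrix (Fin m ⊕ Fin m) (Fin m ⊕ Fin m) F} (hy : SAm y) (P : F[X]) :
    SAm (aeval y P) := by unfold SAm; rw [← aeval_algHom_apply]; exact SA.aeval hy P

theorem symp_ext {y z : Matrix (Fin m ⊕ Fin m) (Fin m ⊕ Fin m) F}
    (h : ∀ u v, sympB m F u (y *ᵥ v) = sympB m F u (z *ᵥ v)) : y = z :=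
  Matrix.ext_iff_mulVec.2 fun v => sub_eq_zero.1 (sympB_nondegenerate.2 _ fun u => by
    rw [map_sub, h, sub_self])

theorem exists_adj (y : Matrix (Fin m ⊕ Fin m) (Fin m ⊕ Fin m) F) :
    ∃ y' : Matrix (Fin m ⊕ Fin m) (Fin m ⊕ Fin m) F, y'.trace = y.trace ∧
      (∀ u v, sympB m F (y *ᵥ u) v = sympB m F u (y' *ᵥ v)) ∧
      ∀ u v, sympB m F (y' *ᵥ u) v = sympB m F u (y *ᵥ v) := by
  have hB : ∀ u v, sympB m F u v = u ⬝ᵥ (J (Fin m) F *ᵥ v) := fun u v => by
    rw [sympB_eq, ← HForm.spForm_apply, HForm.spForm_apply']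
  have h1 : ∀ u v, sympB m F (y *ᵥ u) v = sympB m F u ((-(J (Fin m) F * yᵀ * J (Fin m) F)) *ᵥ v) := by
    intro u v
    rw [hB, hB, mulVec_mulVec, Matrix.mul_neg, ← Matrix.mul_assoc, ← Matrix.mul_assoc, J_squared,
      ← vecMul_transpose, ← dotProduct_mulVec, mulVec_mulVec]
    simp
  refine ⟨_, ?_, h1, fun u v => ?_⟩
  · rw [trace_neg, trace_mul_comm, ← Matrix.mul_assoc, J_squared]
    simp
  · rw [sympB_swap, ← h1, ← sympB_swap]

theorem adj_shift {G G' y y' : Matrix (Fin m ⊕ Fin m) (Fin m ⊕ Fin m) F} {j : F}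
    (hG : ∀ u v, sympB m F (G *ᵥ u) (G *ᵥ v) = sympB m F u v) (h1 : G * G' = 1)
    (hy : ∀ u v, sympB m F (y *ᵥ u) v = sympB m F u (y' *ᵥ v)) (h : G * y = y * G + j • G) :
    G * y' = y' * G + j • G := by
  refine symp_ext fun u v => ?_
  have hu : u = G *ᵥ G' *ᵥ u := by rw [mulVec_mulVec, h1, one_mulVec]
  rw [hu, ← mulVec_mulVec, hG, ← hy, ← hG, mulVec_mulVec, h, add_mulVec, add_mulVec,
    ← mulVec_mulVec, ← mulVec_mulVec, map_add, map_add, LinearMap.add_apply, hy, smul_mulVec,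
    smul_mulVec, map_smul, map_smul, LinearMap.smul_apply]

theorem sam_add_inv {G G' : Matrix (Fin m ⊕ Fin m) (Fin m ⊕ Fin m) F}
    (hG : ∀ u v, sympB m F (G *ᵥ u) (G *ᵥ v) = sympB m F u v) (h1 : G * G' = 1) :
    SAm (G + G') := by
  rw [sam_iff]
  intro u v
  have e1 : sympB m F (G *ᵥ u) v = sympB m F u (G' *ᵥ v) := by
    rw [← hG u, mulVec_mulVec, h1, one_mulVec]
  have e2 : sympB m F (G' *ᵥ u) v = sympB m F u (G *ᵥ v) := by
    rw [← hG _ v, mulVec_mulVec, h1, one_mulVec]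
  rw [add_mulVec, add_mulVec, map_add, map_add, LinearMap.add_apply, e1, e2, add_comm]

end Sp

section Six
variable [CharP F 3]

theorem two_ne_zero_three : (2 : F) ≠ 0 := fun h =>
  one_ne_zero (α := F) (by linear_combination three_eq_zero' F - h)

theorem fix_nilp {ι : Type*} [Fintype ι] [DecidableEq ι] (hι : Fintype.card ι ≤ 9)
    {θ n : Matrix ι ι F} {c : F} (hn : n = θ ^ 3 - θ - c • 1) (h : IsNilpotent n) :
    (θ + (n + n ^ 3)) ^ 3 = θ + (n + n ^ 3) + c • 1 := by
  have h9 : n ^ 9 = 0 := by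
    have h1 := GLn.charpoly_of_isNilpotent_sub (A := n) (c := 0) (by simpa using h)
    have h2 := aeval_self_charpoly n
    rw [h1] at h2
    simp only [map_zero, sub_zero, map_pow, aeval_X] at h2
    exact pow_eq_zero_of_le hι h2
  have hc : Commute θ n := by
    rw [hn]
    exact (((Commute.refl θ).pow_right 3).sub_right (Commute.refl θ)).sub_right
      ((Commute.one_right θ).smul_right c)
  rw [mat_cube_add (hc.add_right (hc.pow_right 3)),
    mat_cube_add ((Commute.refl n).pow_right 3), ← pow_mul, h9]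
  have : θ ^ 3 = n + θ + c • 1 := by rw [hn]; abel
  rw [this]; abel

theorem comm_as {ι : Type*} [Fintype ι] [DecidableEq ι] {G θ : Matrix ι ι F}
    (hGθ : G * θ = θ * G + G) : Commute G (θ ^ 3 - θ) := by
  have a1 : G * θ = (θ + 1) * G := by rw [hGθ, add_mul, one_mul]
  have a2 : G * θ ^ 3 = (θ + 1) ^ 3 * G := (SemiconjBy.pow_right a1 3).eq
  rw [mat_cube_add (Commute.one_right θ), one_pow] at a2
  change _ = _
  rw [mul_sub, a1, a2]; noncomm_ring

theorem shift_eig [Finite F] {m : ℕ} {G p p' θ : Matrix (Fin m ⊕ Fin m) (Fin m ⊕ Fin m) F}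
    {a t : F} (c : F) (hθ : SAm θ) (hG : G * θ = θ * G + G) (hp : θ * p = p * θ + p)
    (hp' : θ * p' = p' * θ - p') (hpp : Commute p p') (hs : SAm (p + p'))
    (hGp : Commute G (p + p')) (hz : Commute (θ ^ 3 - θ) (p + p'))
    (ha : IsNilpotent (θ ^ 3 - θ - a • 1)) (ht : IsNilpotent (p + p' - t • 1)) (ht0 : t ≠ 0) :
    ∃ θ', SAm θ' ∧ G * θ' = θ' * G + G ∧ IsNilpotent (θ' ^ 3 - θ' - c • 1) := by
  obtain ⟨s, hs'⟩ := exists_cube (c - a)
  have hj := jacobson_three (mat_three (F := F)) (θ := θ) (y := (s / t) • (p + p'))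
    (z := (s / t) • (p - p'))
    (by simp only [mul_smul_comm, smul_mul_assoc, ← smul_add, mul_add, add_mul, hp, hp']
        congr 1; abel)
    (by simp only [mul_smul_comm, smul_mul_assoc, ← smul_add, mul_sub, sub_mul, hp, hp']
        congr 1; abel)
    (((((Commute.refl p).add_right hpp).sub_left
      (hpp.symm.add_right (Commute.refl p'))).smul_left _).smul_right _).eq
  refine ⟨θ + (s / t) • (p + p'), hθ.add (hs.smul _), ?_, ?_⟩
  · rw [mul_add, add_mul, hG, (hGp.smul_right _).eq]; abel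
  · have e1 : ((s / t) • (p + p' - t • 1)) ^ 3 = ((s / t) • (p + p')) ^ 3 - (c - a) • 1 := by
      rw [smul_sub, sub_eq_add_neg, mat_cube_add
        (((Commute.one_right _).smul_right _).smul_right _).neg_right, smul_smul,
        div_mul_cancel₀ _ ht0, Odd.neg_pow (by decide), _root_.smul_pow s, hs', one_pow,
        ← sub_eq_add_neg]
    have e2 : (θ + (s / t) • (p + p')) ^ 3 - (θ + (s / t) • (p + p')) - c • 1 =
        (θ ^ 3 - θ - a • 1) + ((s / t) • (p + p' - t • 1)) ^ 3 := by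
      rw [hj, e1, sub_smul]; abel
    rw [e2]
    refine Commute.isNilpotent_add ?_ ha ((ht.smul _).pow_of_pos (by norm_num))
    refine Commute.pow_right (Commute.smul_right ?_ _) 3
    exact (hz.sub_left ((Commute.one_left _).smul_left a)).sub_right
      ((Commute.one_right _).smul_right t)

theorem sp6_cases [Finite F] {G G' : Matrix (Fin 3 ⊕ Fin 3) (Fin 3 ⊕ Fin 3) F}
    (hG : ∀ u v, sympB 3 F (G *ᵥ u) (G *ᵥ v) = sympB 3 F u v) (h1 : G * G' = 1) {c : F}
    (hc : ∀ t, t ^ 3 - t ≠ c) (hno : ¬ ND2 (sympB 3 F) (toLinAlgEquiv' G)) :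
    ∃ (θ : Matrix (Fin 3 ⊕ Fin 3) (Fin 3 ⊕ Fin 3) F) (j : F), SAm θ ∧ θ ^ 3 = θ + c • 1 ∧
      j ^ 3 = j ∧ G * θ = θ * G + j • G := by
  have h3 := three_eq_zero' F
  have h2 : G' * G = 1 := mul_eq_one_comm.1 h1
  have key : ∀ y, SAm y → Commute G y → (∃ a : F, IsNilpotent (y - a • 1)) ∨
      ∃ P : F[X], P.Monic ∧ Irreducible P ∧ P.natDegree = 3 ∧ IsNilpotent (aeval y P) := by
    intro y hy hc
    rcases sa_cases sympB_self sympB_nondegenerate two_ne_zero_three (by simp) hno hy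
      (hc.map toLinAlgEquiv') with ⟨a, h⟩ | ⟨P, h1, h2, h3, h⟩
    · refine Or.inl ⟨a, ?_⟩
      have := h.map (toLinAlgEquiv' (R := F) (n := Fin 3 ⊕ Fin 3)).symm
      rwa [map_sub, map_smul, map_one, AlgEquiv.symm_apply_apply] at this
    · refine Or.inr ⟨P, h1, h2, h3, ?_⟩
      have := h.map (toLinAlgEquiv' (R := F) (n := Fin 3 ⊕ Fin 3)).symm
      rwa [aeval_algHom_apply, AlgEquiv.symm_apply_apply] at this
  by_cases hA : ∃ y, SAm y ∧ Commute G y ∧
      ∃ P : F[X], P.Monic ∧ Irreducible P ∧ P.natDegree = 3 ∧ IsNilpotent (aeval y P)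
  · obtain ⟨y, hy, hyc, P, p1, p2, p3, n, hn⟩ := hA
    obtain ⟨r, hr⟩ := exists_aeval_root (p1.pow n) (asP_irr hc) (fun Q hQ hd => by
      have := natDegree_eq_of_degree_eq (degree_eq_degree_of_associated
        (hQ.associated_of_dvd p2 (hQ.prime.dvd_of_dvd_pow hd)))
      rw [asP_natDegree, this, p3]) (g := y) (by rw [map_pow, hn])
    exact ⟨aeval y r, 0, hy.aeval r, (aeval_asP _ _).1 hr, by simp,
      by rw [(commute_aeval hyc r).eq]; simp⟩
  have hB : ∀ y, SAm y → Commute G y → ∃ a : F, IsNilpotent (y - a • 1) := fun y hy hc =>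
    (key y hy hc).resolve_right fun h => hA ⟨y, hy, hc, h⟩
  have hsym : ∀ y (j : F), G * y = y * G + j • G → ∃ y', SAm (y + y') ∧ y'.trace = y.trace ∧
      G * y' = y' * G + j • G := by
    intro y j h
    obtain ⟨y', e1, e2, e3⟩ := exists_adj y
    refine ⟨y', sam_iff.2 fun u v => ?_, e1, adj_shift hG h1 e2 h⟩
    rw [add_mulVec, add_mulVec, map_add, map_add, LinearMap.add_apply, e2, e3, add_comm]
  have htr : ∀ y, Commute G y → y.trace = 0 := by
    intro y hy
    obtain ⟨y', e1, e2, e3⟩ := hsym y 0 (by rw [hy.eq]; simp)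
    obtain ⟨a, ha⟩ := hB _ e1 (hy.add_right (show G * y' = y' * G by simpa using e3))
    have := (isNilpotent_trace_of_isNilpotent ha).eq_zero
    simp only [trace_sub, trace_add, trace_smul, trace_one, e2] at this
    simp at this
    linear_combination -this + (y.trace - 2 * a) * h3
  obtain ⟨θ₁, hθ₁⟩ := exists_shift htr
  obtain ⟨θ₂, e1, -, e3⟩ := hsym θ₁ 1 (by rw [one_smul]; exact hθ₁)
  have hθ : SAm (-(θ₁ + θ₂)) := e1.neg
  have hGθ : G * -(θ₁ + θ₂) = -(θ₁ + θ₂) * G + G := by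
    have : G + G + G = 0 := by
      have := congrArg (· * G) (mat_three (F := F) (ι := Fin 3 ⊕ Fin 3))
      simp only [zero_mul] at this
      rw [← this]; noncomm_ring
    rw [mul_neg, mul_add, hθ₁, e3, one_smul, neg_mul, add_mul, ← sub_eq_zero, ← neg_eq_zero,
      ← this]
    abel
  generalize -(θ₁ + θ₂) = θ at hθ hGθ
  have hz : Commute G (θ ^ 3 - θ) := comm_as hGθ
  have hGG : Commute G G' := h1.trans h2.symm
  have hinv : ∀ z, Commute G z → Commute G' z := fun z hz => by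
    calc G' * z = G' * z * (G * G') := by rw [h1, mul_one]
      _ = G' * (z * G) * G' := by simp only [mul_assoc]
      _ = z * G' := by rw [← hz.eq, ← mul_assoc, h2, one_mul]
  obtain ⟨a, ha⟩ := hB _ ((hθ.pow 3).sub hθ) hz
  have q1 : θ * G = G * θ - G := by rw [hGθ]; abel
  have q2 : θ * G' = G' * θ + G' := by
    calc θ * G' = G' * (G * θ) * G' := by rw [← mul_assoc, h2, one_mul]
      _ = G' * θ * (G * G') + G' * (G * G') := by rw [hGθ]; noncomm_ring
      _ = _ := by rw [h1, mul_one, mul_one]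
  obtain ⟨θ', s1, s2, s3⟩ : ∃ θ', SAm θ' ∧ G * θ' = θ' * G + G ∧
      IsNilpotent (θ' ^ 3 - θ' - c • 1) := by
    have t1 : SAm (G' + G) := by rw [add_comm]; exact sam_add_inv hG h1
    have t2 : Commute G (G' + G) := hGG.add_right (Commute.refl G)
    obtain ⟨t, ht⟩ := hB _ t1 t2
    by_cases ht0 : t = 0
    · have m3 := mat_three (F := F) (ι := Fin 3 ⊕ Fin 3)
      refine shift_eig (p := G * G) (p' := G' * G') (t := 1) c hθ hGθ ?_ ?_
        ((hGG.mul_right hGG).mul_left (hGG.mul_right hGG))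
        (sam_add_inv (fun u v => by rw [← mulVec_mulVec, ← mulVec_mulVec, hG, hG])
          (by rw [mul_assoc, ← mul_assoc G G', h1, one_mul, h1]))
        (((Commute.refl G).mul_right (Commute.refl G)).add_right (hGG.mul_right hGG))
        ((hz.symm.mul_right hz.symm).add_right
          ((hinv _ hz).symm.mul_right (hinv _ hz).symm)) ha ?_ one_ne_zero
      · have : θ * (G * G) = G * G * θ + G * G - 3 * (G * G) := by
          rw [← mul_assoc, q1, sub_mul, mul_assoc, q1]; noncomm_ring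
        rw [this, m3, zero_mul, sub_zero]
      · have : θ * (G' * G') = G' * G' * θ - G' * G' + 3 * (G' * G') := by
          rw [← mul_assoc, q2, add_mul, mul_assoc, q2]; noncomm_ring
        rw [this, m3, zero_mul, add_zero]
      · have : G * G + G' * G' - (1 : F) • 1 = (G' + G) ^ 2 - 3 := by
          rw [sq, mul_add, add_mul, add_mul, h1, h2, one_smul,
            show (3 : Matrix (Fin 3 ⊕ Fin 3) (Fin 3 ⊕ Fin 3) F) = 1 + 1 + 1 by norm_num]
          abel
        rw [this, m3, sub_zero]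
        rw [ht0, zero_smul, sub_zero] at ht
        exact ht.pow_of_pos two_ne_zero
    · exact shift_eig c hθ hGθ q2 q1 hGG.symm t1 t2 ((hinv _ hz).symm.add_right hz.symm) ha ht ht0
  have n1 : SAm (θ' ^ 3 - θ' - c • 1) := ((s1.pow 3).sub s1).sub (SAm.one.smul c)
  have n2 : Commute G (θ' ^ 3 - θ' - c • 1) :=
    (comm_as s2).sub_right ((Commute.one_right G).smul_right c)
  refine ⟨_, 1, s1.add (n1.add (n1.pow 3)), fix_nilp (by simp) rfl s3, one_pow 3, ?_⟩
  rw [mul_add, s2, (n2.add_right (n2.pow_right 3)).eq, add_mul θ', one_smul]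
  abel

theorem cov_psp6 (F : Type*) [Field F] [Fintype F] [CharP F 3] : Cov2 (PSp 3 F) := by
  have h3 := three_eq_zero' F
  obtain ⟨c, -, hc⟩ := exists_as_const (RingHom.id F) fun _ => rfl
  let A : Matrix (Fin 3) (Fin 3) F := !![0, 0, c; 1, 0, 1; 0, 1, 0]
  let θ₀ : Matrix (Fin 3 ⊕ Fin 3) (Fin 3 ⊕ Fin 3) F := fromBlocks A 0 0 Aᵀ
  have hA : A ^ 3 = A + c • 1 := by
    ext i j
    fin_cases i <;> fin_cases j <;> simp [A, pow_succ, Matrix.mul_apply, Fin.sum_univ_three]
  have hθ : θ₀ ^ 3 = θ₀ + c • 1 := by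
    simp only [θ₀]
    rw [fromBlocks_diagonal_pow, ← transpose_pow, hA, ← fromBlocks_one, fromBlocks_smul,
      fromBlocks_add]
    simp
  have hθ' : SAm θ₀ := sam_iff.2 fun u v => by
    simp [sympB_eq, θ₀, A, mulVec, dotProduct, Fin.sum_univ_three]
    ring
  have hact : IsAct fun (g : symplecticGroup (Fin 3) F) v =>
      (g : Matrix (Fin 3 ⊕ Fin 3) (Fin 3 ⊕ Fin 3) F) *ᵥ v :=
    ⟨fun x => by simp, fun g h x => by simp⟩
  have hrep : Rep (σ := RingHom.id F) (sympB 3 F) := rep_of_nondegenerate sympB_nondegenerate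
  let a : Fin 3 ⊕ Fin 3 → F := Pi.single (.inr 0) 1
  let b : Fin 3 ⊕ Fin 3 → F := Pi.single (.inl 0) 1
  have hab : sympB 3 F a b = 1 := by simp [sympB_eq, a, b, Pi.single_apply]
  have htr : ∀ a' b', sympB 3 F a' b' = 1 →
      ∃ y : symplecticGroup (Fin 3) F, slin y a = a' ∧ slin y b = b' := by
    intro a' b' h
    obtain ⟨f, hf, hf'⟩ := witt_alt_family hrep sympB_self _ _ (li_of_form_one sympB_self hab)
      (li_of_form_one sympB_self h) (fun i j => by
        fin_cases i <;> fin_cases j <;> simp [sympB_self, hab, h, sympB_swap a b, sympB_swap a' b'])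
    obtain ⟨y, rfl⟩ := exists_slin_eq hf
    exact ⟨y, hf' 0, hf' 1⟩
  refine cov_quot isAct_sp hact.prod (Submodule.span F {a, b} : Submodule F _) (graphs θ₀)
    ?_ ?_ ?_ ?_ ?_
  · obtain ⟨y, hy, -⟩ := htr (Pi.single (.inr 1) 1) (Pi.single (.inl 1) 1)
      (by simp [sympB_eq, Pi.single_apply])
    refine ⟨y, a, Submodule.subset_span (by simp), fun h => ?_⟩
    obtain ⟨r, s, hrs⟩ := Submodule.mem_span_pair.1 h
    rw [hy] at hrs
    simpa [a, b] using congrFun hrs (.inr 1)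
  · let d : Fin 3 ⊕ Fin 3 → F := Sum.elim ![1, -1, -1] ![1, -1, -1]
    refine ⟨⟨diagonal d, mem_symplecticGroup_iff_form.2 fun x y => ?_⟩, (b, θ₀ *ᵥ b),
      ⟨0, by simp, by simp⟩, ?_⟩
    · simp [sympB_eq, d, mulVec_diagonal, Fin.sum_univ_three]
    · rintro ⟨k, -, hk⟩
      have := congrFun hk (.inl 1)
      simp [θ₀, A, b, d, mulVec_diagonal] at this
      exact two_ne_zero_three (F := F) (by linear_combination -this)
  · intro z hz v hv
    obtain ⟨a, -, ha⟩ := sp_center_smul hz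
    rw [ha]
    exact Submodule.smul_mem _ _ hv
  · intro z hz v hv
    obtain ⟨a, -, ha⟩ := sp_center_smul hz
    simp only [← slin_apply, ha]
    exact graphs_smul θ₀ a hv
  · intro g
    by_cases hno : ND2 (sympB 3 F)
      (toLinAlgEquiv' (g : Matrix (Fin 3 ⊕ Fin 3) (Fin 3 ⊕ Fin 3) F))
    · obtain ⟨a', b', h, ha, hb⟩ := hno
      rw [toLinAlg_apply, ← slin_apply] at ha hb
      obtain ⟨y, hy, hy'⟩ := htr a' b' h
      refine Or.inl ⟨y, fun v hv => ?_⟩
      obtain ⟨r, s, rfl⟩ := Submodule.mem_span_pair.1 hv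
      have : slin g (slin y (r • a + s • b)) ∈ Submodule.span F {a', b'} := by
        simp only [map_add, map_smul, hy, hy']
        exact add_mem (Submodule.smul_mem _ _ ha) (Submodule.smul_mem _ _ hb)
      obtain ⟨r', s', h'⟩ := Submodule.mem_span_pair.1 this
      refine ⟨_, Submodule.mem_span_pair.2 ⟨r', s', rfl⟩, ?_⟩
      beta_reduce
      rw [← h', map_add, map_smul, map_smul, hy, hy']
    · obtain ⟨θ, j, h1, h2, h4, h5⟩ := sp6_cases (G' := (g⁻¹ : symplecticGroup (Fin 3) F))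
        (fun u v => by rw [← slin_apply, ← slin_apply, slin_form])
        (congrArg Subtype.val (mul_inv_cancel g)) hc hno
      obtain ⟨u, hu, e⟩ := as_conj sympB_self sympB_nondegenerate two_ne_zero_three (by simp) hc
        hθ' h1 (by rw [← map_pow, hθ, map_add, map_smul, map_one])
        (by rw [← map_pow, h2, map_add, map_smul, map_one])
      obtain ⟨y, rfl⟩ := exists_slin_eq hu
      refine Or.inr (pres_graphs hact (y := y) (θ := θ) ?_ h4 h5)
      refine Matrix.ext_iff_mulVec.2 fun v => ?_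
      have := congrArg (fun k : End F (Fin 3 ⊕ Fin 3 → F) => k v) e
      simpa only [End.mul_apply, toLinAlg_apply, slin_apply, mulVec_mulVec] using this

end Six

end Cfsg.Agent.Cov
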